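import Cfsg.Agent.H4.SLThree.OrthStd
import Cfsg.Agent.H98.OrthForm
import Cfsg.Agent.H98.Decomp
import Cfsg.Agent.H98.SubfieldBase

/-!
The similarity group of any non-degenerate ternary quadratic form in odd characteristic is maximal in `SL₃`.
-/

set_option autoImplicit false
set_option linter.unusedSectionVars false

namespace Cfsg.Agent.H4.SLThree

open scoped Matrix

variable {F : Type*} [Field F] [Fintype F]

/-- Every non-degenerate ternary form is a multiple of a transform of the standard one. -/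
theorem exists_std {q : QuadraticForm F (Fin 3 → F)} (hq : H98.Orth.Good q) :
    ∃ (P : GL (Fin 3) F) (δ : F), δ ≠ 0 ∧
      ∀ v, q ((P : Matrix (Fin 3) (Fin 3) F) *ᵥ v) = δ * qStd v := by
  obtain ⟨e, -, he0, hee⟩ := hq.exists_singular (U := ⊤) (by simp)
  obtain ⟨f, hff, hef, hfe, -⟩ :=
    hq.partner_perp (S := ⊥) hee (by simpa using he0) (fun s hs => by
      rw [(Submodule.mem_bot F).1 hs, map_zero])
  have hee' : q.polarBilin e e = 0 := by rw [H98.Orth.b_self, hee, mul_zero]
  have hff' : q.polarBilin f f = 0 := by rw [H98.Orth.b_self, hff, mul_zero]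
  obtain ⟨v, hv⟩ : ∃ v, v ∉ Submodule.span F (Set.range ![e, f]) := by
    by_contra hc
    push Not at hc
    have h1 := finrank_range_le_card (R := F) ![e, f]
    rw [Set.finrank, (Submodule.eq_top_iff').2 hc, finrank_top, Module.finrank_pi] at h1
    simp at h1
  set m := v - q.polarBilin f v • e - q.polarBilin e v • f with hm
  have hm0 : m ≠ 0 := fun h0 => hv (by
    rw [hm, sub_sub, sub_eq_zero] at h0
    rw [h0]
    exact Submodule.add_mem _ (Submodule.smul_mem _ _ (Submodule.subset_span ⟨0, rfl⟩))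
      (Submodule.smul_mem _ _ (Submodule.subset_span ⟨1, rfl⟩)))
  have hem : q.polarBilin e m = 0 := by
    rw [hm, map_sub, map_sub, map_smul, map_smul, hee', hef]; simp
  have hfm : q.polarBilin f m = 0 := by
    rw [hm, map_sub, map_sub, map_smul, map_smul, hff', hfe]; simp
  let L : (Fin 3 → F) →ₗ[F] (Fin 3 → F) :=
    (LinearMap.proj 0 : (Fin 3 → F) →ₗ[F] F).smulRight e +
      (LinearMap.proj 1 : (Fin 3 → F) →ₗ[F] F).smulRight m +
      (LinearMap.proj 2 : (Fin 3 → F) →ₗ[F] F).smulRight f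
  have hL : ∀ x, L x = x 0 • e + x 1 • m + x 2 • f := fun x => rfl
  have hinj : Function.Injective L := by
    rw [injective_iff_map_eq_zero]
    intro x hx
    rw [hL] at hx
    have h2 := congrArg (q.polarBilin e) hx
    have h0 := congrArg (q.polarBilin f) hx
    rw [map_add, map_add, map_smul, map_smul, map_smul, hee', hem, hef, map_zero] at h2
    rw [map_add, map_add, map_smul, map_smul, map_smul, hfe, hfm, hff', map_zero] at h0
    simp at h2 h0
    rw [h0, h2, zero_smul, zero_smul, zero_add, add_zero, smul_eq_zero] at hx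
    ext i; fin_cases i <;> simp [h0, h2, hx.resolve_right hm0]
  have hδ : q m ≠ 0 := by
    intro h0
    refine hm0 (hq.eq_zero fun y => ?_)
    obtain ⟨x, rfl⟩ := LinearMap.injective_iff_surjective.1 hinj y
    rw [hL, map_add, map_add, map_smul, map_smul, map_smul, H98.Orth.b_comm m e, hem,
      H98.Orth.b_self, h0, H98.Orth.b_comm m f, hfm]
    simp
  let D : (Fin 3 → F) →ₗ[F] (Fin 3 → F) :=
    LinearMap.pi ![q m • (LinearMap.proj 0 : (Fin 3 → F) →ₗ[F] F), LinearMap.proj 1, LinearMap.proj 2]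
  have hD : Function.Injective D := by
    rw [injective_iff_map_eq_zero]
    intro x hx
    have h0 := congrFun hx 0
    have h1 := congrFun hx 1
    have h2 := congrFun hx 2
    simp [D, hδ] at h0 h1 h2
    ext i; fin_cases i <;> assumption
  refine ⟨H98.glOfEquiv (LinearEquiv.ofInjectiveEndo (L ∘ₗ D) (hinj.comp hD)), q m, hδ, fun x => ?_⟩
  rw [H98.glOfEquiv_mulVec, LinearEquiv.coe_ofInjectiveEndo, LinearMap.comp_apply, hL]
  have hxm : q.polarBilin (D x 0 • e) (D x 1 • m) = 0 := by
    rw [map_smul, LinearMap.map_smul₂, hem]; simp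
  have hmf : q.polarBilin m f = 0 := by rw [H98.Orth.b_comm]; exact hfm
  rw [H98.Orth.q_add, H98.Orth.q_add, H98.Orth.q_smul, H98.Orth.q_smul, H98.Orth.q_smul, hxm, hee, hff,
    LinearMap.map_add₂]
  simp only [map_smul, LinearMap.smul_apply, hef, hmf]
  simp [D, qStd]
  ring

/-- Conjunct (6) of the geometric maximality statement for `SL₃`. -/
theorem quad_similarity_maximal :
    Odd (Fintype.card F) → ∀ Q : (Fin 3 → F) → F, Cfsg.Geo.IsNondegenerateQuadraticForm Q →
      Cfsg.Geo.IsMaximalIn (Cfsg.Geo.specialLinear (Fin 3) F)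
        (Cfsg.Geo.quadSimilarityGroup Q ⊓ Cfsg.Geo.specialLinear (Fin 3) F) := by
  intro hodd Q hQ
  have h2 : (2 : F) ≠ 0 := fun h => by
    haveI : CharP F 2 := CharTwo.of_one_ne_zero_of_two_eq_zero one_ne_zero h
    exact Nat.not_even_iff_odd.mpr hodd
      (Nat.even_iff.mpr (FiniteField.even_card_iff_char_two.mp (ringChar.eq F 2)))
  obtain ⟨P, δ, hδ, hP⟩ := exists_std (q := H98.qOfFun Q hQ) ⟨h2, H98.qOfFun_nondeg hQ⟩
  simp only [H98.qOfFun_apply] at hP
  have hmax := H98.isMaximalIn_conj P (std_maximal (F := F) h2)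
  have hiff : ∀ g : GL (Fin 3) F, P⁻¹ * g * P ∈ Cfsg.Geo.quadSimilarityGroup (qStd (F := F)) ↔
      g ∈ Cfsg.Geo.quadSimilarityGroup Q := by
    intro g
    refine exists_congr fun c => ⟨fun h v => ?_, fun h v => ?_⟩
    · have := h (((P⁻¹ : GL (Fin 3) F) : Matrix (Fin 3) (Fin 3) F) *ᵥ v)
      rw [← mul_mulVec, mul_assoc, mul_inv_cancel, mul_one, mul_mulVec] at this
      have h' := congrArg (δ * ·) this
      simp only [mul_left_comm δ (c : F)] at h'
      rwa [← hP, ← hP, H98.gl_mulVec_inv, H98.gl_mulVec_inv] at h'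
    · refine mul_left_cancel₀ hδ ?_
      rw [mul_left_comm δ (c : F), ← hP, ← hP, mul_mulVec, mul_mulVec, H98.gl_mulVec_inv]
      exact h _
  have hK : (Cfsg.Geo.specialLinear (Fin 3) F).map (MulAut.conj P).toMonoidHom =
      Cfsg.Geo.specialLinear (Fin 3) F := by
    ext g
    rw [Subgroup.mem_map_equiv, MulAut.conj_symm_apply]
    simp [Cfsg.Geo.specialLinear, mul_comm]
  have hH : (Cfsg.Geo.quadSimilarityGroup (qStd (F := F)) ⊓ Cfsg.Geo.specialLinear (Fin 3) F).map
      (MulAut.conj P).toMonoidHom =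
      Cfsg.Geo.quadSimilarityGroup Q ⊓ Cfsg.Geo.specialLinear (Fin 3) F := by
    ext g
    rw [Subgroup.mem_map_equiv, MulAut.conj_symm_apply, Subgroup.mem_inf, Subgroup.mem_inf, hiff]
    simp [Cfsg.Geo.specialLinear, mul_comm]
  rwa [hK, hH] at hmax

end Cfsg.Agent.H4.SLThree
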