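import Cfsg.Agent.H98.MaximalSL
import Cfsg.Prelude.Def_GeometricClasses

/-!
The similarity group of a ternary quadratic form in odd characteristic is maximal in `SL₃`:
the standard form `y² + x z`.
-/

set_option autoImplicit false
set_option linter.unusedSectionVars false

namespace Cfsg.Agent.H4.SLThree

open scoped Matrix

variable {F : Type*} [Field F]

/-- The standard form. -/
def qStd (v : Fin 3 → F) : F := v 1 ^ 2 + v 0 * v 2

/-- Its polar form. -/
def bStd (v w : Fin 3 → F) : F := 2 * (v 1 * w 1) + v 0 * w 2 + v 2 * w 0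

theorem bStd_self (v : Fin 3 → F) : bStd v v = 2 * qStd v := by
  simp only [bStd, qStd]; ring

theorem qStd_add (v w : Fin 3 → F) : qStd (v + w) = qStd v + qStd w + bStd v w := by
  simp only [bStd, qStd, Pi.add_apply]; ring

theorem qStd_smul (c : F) (v : Fin 3 → F) : qStd (c • v) = c ^ 2 * qStd v := by
  simp only [qStd, Pi.smul_apply, smul_eq_mul]; ring

/-- A matrix of determinant one as an element of `GL`. -/
def glOne (A : Matrix (Fin 3) (Fin 3) F) (h : A.det = 1) : GL (Fin 3) F :=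
  Matrix.SpecialLinearGroup.toGL ⟨A, h⟩

@[simp] theorem glOne_val (A : Matrix (Fin 3) (Fin 3) F) (h : A.det = 1) :
    (glOne A h : Matrix (Fin 3) (Fin 3) F) = A := rfl

theorem glOne_mem (A : Matrix (Fin 3) (Fin 3) F) (h : A.det = 1) :
    glOne A h ∈ Cfsg.Geo.specialLinear (Fin 3) F :=
  MonoidHom.mem_ker.2 (Units.ext h)

@[simp] theorem mulVec3 (a b c d e f g h i : F) (v : Fin 3 → F) :
    !![a, b, c; d, e, f; g, h, i] *ᵥ v =
      ![a * v 0 + b * v 1 + c * v 2, d * v 0 + e * v 1 + f * v 2, g * v 0 + h * v 1 + i * v 2] := by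
  ext j; fin_cases j <;> simp [Matrix.mulVec, dotProduct, Fin.sum_univ_three]

theorem transvection3 {i j : Fin 3} (hij : i ≠ j) (c : F) (v : Fin 3 → F) :
    (Matrix.SpecialLinearGroup.transvection hij c : Matrix (Fin 3) (Fin 3) F) *ᵥ v =
      v + Pi.single i (c * v j) := by
  rw [Matrix.SpecialLinearGroup.transvection_coe, Matrix.add_mulVec, Matrix.one_mulVec]
  ext k; fin_cases i <;> fin_cases j <;> fin_cases k <;>
    simp [Matrix.single, Matrix.mulVec, dotProduct, Fin.sum_univ_three]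

theorem ext3 {g h : GL (Fin 3) F}
    (he : ∀ v, (g : Matrix (Fin 3) (Fin 3) F) *ᵥ v = (h : Matrix (Fin 3) (Fin 3) F) *ᵥ v) : g = h :=
  H98.gl_ext he

theorem mul_mulVec (g h : GL (Fin 3) F) (v : Fin 3 → F) :
    ((g * h : GL (Fin 3) F) : Matrix (Fin 3) (Fin 3) F) *ᵥ v =
      (g : Matrix (Fin 3) (Fin 3) F) *ᵥ ((h : Matrix (Fin 3) (Fin 3) F) *ᵥ v) := by
  rw [Units.val_mul, Matrix.mulVec_mulVec]

/-- The elations with centre `e₀`. -/
def el (β γ : F) : GL (Fin 3) F :=
  glOne !![1, β, γ; 0, 1, 0; 0, 0, 1] (by simp [Matrix.det_fin_three])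

@[simp] theorem el_mulVec (β γ : F) (v : Fin 3 → F) :
    (el β γ : Matrix (Fin 3) (Fin 3) F) *ᵥ v = ![v 0 + β * v 1 + γ * v 2, v 1, v 2] := by
  ext i; fin_cases i <;> simp [el, Matrix.mulVec, dotProduct, Fin.sum_univ_three]

/-- The unipotent isometries fixing `e₀`. -/
def uni (s : F) : GL (Fin 3) F :=
  glOne !![1, -(2 * s), -(s ^ 2); 0, 1, s; 0, 0, 1] (by simp [Matrix.det_fin_three])

@[simp] theorem uni_mulVec (s : F) (v : Fin 3 → F) :
    (uni s : Matrix (Fin 3) (Fin 3) F) *ᵥ v =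
      ![v 0 - 2 * s * v 1 - s ^ 2 * v 2, v 1 + s * v 2, v 2] := by
  ext i; fin_cases i <;> simp [uni, Matrix.mulVec, dotProduct, Fin.sum_univ_three] <;> ring

/-- The torus. -/
def tor (t : F) (ht : t ≠ 0) : GL (Fin 3) F :=
  glOne !![t, 0, 0; 0, 1, 0; 0, 0, t⁻¹] (by simp [Matrix.det_fin_three, ht])

@[simp] theorem tor_mulVec (t : F) (ht : t ≠ 0) (v : Fin 3 → F) :
    (tor t ht : Matrix (Fin 3) (Fin 3) F) *ᵥ v = ![t * v 0, v 1, t⁻¹ * v 2] := by
  ext i; fin_cases i <;> simp [tor, Matrix.mulVec, dotProduct, Fin.sum_univ_three]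

/-- The swap. -/
def swp : GL (Fin 3) F :=
  glOne !![0, 0, 1; 0, -1, 0; 1, 0, 0] (by simp [Matrix.det_fin_three])

@[simp] theorem swp_mulVec (v : Fin 3 → F) :
    ((swp : GL (Fin 3) F) : Matrix (Fin 3) (Fin 3) F) *ᵥ v = ![v 2, -(v 1), v 0] := by
  ext i; fin_cases i <;> simp [swp, Matrix.mulVec, dotProduct, Fin.sum_univ_three]

/-- The involutory isometry fixing `p`, of determinant one. -/
def refl (p : Fin 3 → F) (hp : qStd p ≠ 0) : GL (Fin 3) F :=
  glOne !![p 0 * p 2 * (qStd p)⁻¹ - 1, p 0 * (2 * p 1) * (qStd p)⁻¹, p 0 * p 0 * (qStd p)⁻¹;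
      p 1 * p 2 * (qStd p)⁻¹, p 1 * (2 * p 1) * (qStd p)⁻¹ - 1, p 1 * p 0 * (qStd p)⁻¹;
      p 2 * p 2 * (qStd p)⁻¹, p 2 * (2 * p 1) * (qStd p)⁻¹, p 2 * p 0 * (qStd p)⁻¹ - 1] (by
    have h : (p 1 ^ 2 + p 0 * p 2) * (qStd p)⁻¹ = 1 := mul_inv_cancel₀ hp
    simp only [Matrix.det_fin_three, Matrix.of_apply, Matrix.cons_val', Matrix.cons_val_zero,
      Matrix.cons_val_one, Matrix.cons_val, Matrix.cons_val_fin_one]
    linear_combination (2 : F) * h)

theorem refl_mulVec (p : Fin 3 → F) (hp : qStd p ≠ 0) (v : Fin 3 → F) :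
    (refl p hp : Matrix (Fin 3) (Fin 3) F) *ᵥ v = (bStd p v * (qStd p)⁻¹) • p - v := by
  ext i; fin_cases i <;>
    simp [refl, bStd, Matrix.mulVec, dotProduct, Fin.sum_univ_three] <;> ring

theorem refl_iso (p : Fin 3 → F) (hp : qStd p ≠ 0) (v : Fin 3 → F) :
    qStd ((refl p hp : Matrix (Fin 3) (Fin 3) F) *ᵥ v) = qStd v := by
  have h : qStd p * (qStd p)⁻¹ = 1 := mul_inv_cancel₀ hp
  rw [refl_mulVec, sub_eq_add_neg, qStd_add, qStd_smul]
  simp only [qStd, bStd, Pi.smul_apply, smul_eq_mul, Pi.neg_apply] at h ⊢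
  linear_combination ((p 1 ^ 2 + p 0 * p 2)⁻¹ * (2 * (p 1 * v 1) + p 0 * v 2 + p 2 * v 0) ^ 2) * h

variable {M : Subgroup (GL (Fin 3) F)}

/-- `M` contains the isometries of determinant one. -/
def HasIso (M : Subgroup (GL (Fin 3) F)) : Prop :=
  ∀ g : GL (Fin 3) F, g ∈ Cfsg.Geo.specialLinear (Fin 3) F →
    (∀ v, qStd ((g : Matrix (Fin 3) (Fin 3) F) *ᵥ v) = qStd v) → g ∈ M

theorem uni_mem (hM : HasIso M) (s : F) : uni s ∈ M :=
  hM _ (glOne_mem _ _) fun v => by simp [qStd]; ring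

theorem tor_mem (hM : HasIso M) (t : F) (ht : t ≠ 0) : tor t ht ∈ M :=
  hM _ (glOne_mem _ _) fun v => by simp [qStd]; field_simp

theorem swp_mem (hM : HasIso M) : (swp : GL (Fin 3) F) ∈ M :=
  hM _ (glOne_mem _ _) fun v => by simp [qStd]; ring

theorem refl_mem (hM : HasIso M) (p : Fin 3 → F) (hp : qStd p ≠ 0) : refl p hp ∈ M :=
  hM _ (glOne_mem _ _) (refl_iso p hp)

theorem el_mul (β γ β' γ' : F) : el β γ * el β' γ' = el (β + β') (γ + γ') := ext3 fun v => by
  rw [mul_mulVec]; ext i; fin_cases i <;> simp [Matrix.vecHead, Matrix.vecTail] <;> ring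

theorem el_zero : el (0 : F) 0 = 1 := ext3 fun v => by
  ext i; fin_cases i <;> simp

theorem el_conj_uni (s β γ : F) : uni s * el β γ * (uni s)⁻¹ = el β (γ - s * β) := by
  rw [mul_inv_eq_iff_eq_mul]
  refine ext3 fun v => ?_
  rw [mul_mulVec, mul_mulVec]; ext i; fin_cases i <;> simp [Matrix.vecHead, Matrix.vecTail] <;> ring

theorem el_conj_tor (t : F) (ht : t ≠ 0) (β γ : F) :
    tor t ht * el β γ * (tor t ht)⁻¹ = el (t * β) (t ^ 2 * γ) := by
  rw [mul_inv_eq_iff_eq_mul]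
  refine ext3 fun v => ?_
  rw [mul_mulVec, mul_mulVec]; ext i; fin_cases i <;> simp <;> field_simp <;> ring

/-- One elation with isotropic centre gives the root group. -/
theorem root_of_el (hM : HasIso M) (h2 : (2 : F) ≠ 0) {β γ : F} (h : el β γ ∈ M)
    (hne : β ≠ 0 ∨ γ ≠ 0) (c : F) : el 0 c ∈ M := by
  by_cases hβ : β = 0
  · subst hβ
    have hγ : γ ≠ 0 := hne.resolve_left (fun h => h rfl)
    have hsq : ∀ t : F, el 0 (t ^ 2 * γ) ∈ M := fun t => by
      by_cases ht : t = 0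
      · subst ht; simp [el_zero, M.one_mem]
      · have := M.mul_mem (M.mul_mem (tor_mem hM t ht) h) (M.inv_mem (tor_mem hM t ht))
        rwa [el_conj_tor, mul_zero] at this
    have hneg : ∀ x : F, el 0 x ∈ M → el 0 (-x) ∈ M := fun x hx => by
      have : (el 0 x)⁻¹ = el (0 : F) (-x) :=
        inv_eq_of_mul_eq_one_right (by rw [el_mul, add_zero, add_neg_cancel, el_zero])
      exact this ▸ M.inv_mem hx
    have := M.mul_mem (hsq ((c / γ + 1) / 2)) (hneg _ (hsq ((c / γ - 1) / 2)))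
    rw [el_mul, add_zero] at this
    convert this using 2
    field_simp
    ring
  · have h' := M.mul_mem (M.mul_mem (uni_mem hM (-(c / β))) h) (M.inv_mem (uni_mem hM (-(c / β))))
    rw [el_conj_uni] at h'
    have hinv : (el β γ)⁻¹ = el (-β) (-γ) :=
      inv_eq_of_mul_eq_one_right (by rw [el_mul, add_neg_cancel, add_neg_cancel, el_zero])
    have := M.mul_mem h' (M.inv_mem h)
    rw [hinv, el_mul, add_neg_cancel] at this
    convert this using 2
    field_simp
    ring

/-- The root group of a tangent flag and the isometries generate `SL₃`. -/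
theorem sl_le_of_root [Finite F] (hM : HasIso M) (h2 : (2 : F) ≠ 0) (h : ∀ c : F, el 0 c ∈ M) :
    Cfsg.Geo.specialLinear (Fin 3) F ≤ M := by
  have hw := swp_mem hM
  -- the opposite root group
  have hlow : ∀ c : F, glOne !![1, 0, 0; 0, 1, 0; c, 0, 1] (by simp [Matrix.det_fin_three]) ∈ M := by
    intro c
    convert M.mul_mem (M.mul_mem hw (h c)) hw using 1
    refine ext3 fun v => ?_
    rw [mul_mulVec, mul_mulVec]
    ext i; fin_cases i <;> simp [Matrix.vecHead, Matrix.vecTail] <;> ring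
  have hD : glOne !![-1, 0, 0; 0, -1, 0; 0, 0, (1 : F)] (by simp [Matrix.det_fin_three]) ∈ M := by
    convert M.mul_mem hw (M.mul_mem (M.mul_mem (h 1) (hlow (-1))) (h 1)) using 1
    refine ext3 fun v => ?_
    rw [mul_mulVec, mul_mulVec, mul_mulVec]
    ext i; fin_cases i <;> simp [Matrix.vecHead, Matrix.vecTail] <;> ring
  have hE : ∀ β γ : F, el β γ ∈ M := by
    intro β γ
    set s : F := -(β / 4) with hs
    have h4 : (4 : F) ≠ 0 := by
      rw [show (4 : F) = 2 * 2 by norm_num]; exact mul_ne_zero h2 h2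
    have hv := M.mul_mem (M.mul_mem (M.mul_mem hD (uni_mem hM s)) hD) (uni_mem hM s)
    convert M.mul_mem (h (γ + 2 * s ^ 2)) hv using 1
    refine ext3 fun v => ?_
    rw [mul_mulVec, mul_mulVec, mul_mulVec, mul_mulVec]
    have hβ : β = -(4 * s) := by rw [hs]; field_simp
    ext i; fin_cases i <;> simp [hβ] <;> ring
  have h12 : ∀ c : F, glOne !![1, 0, 0; 0, 1, c; 0, 0, 1] (by simp [Matrix.det_fin_three]) ∈ M := by
    intro c
    convert M.mul_mem (hE (2 * c) (-(c ^ 2))) (uni_mem hM c) using 1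
    refine ext3 fun v => ?_
    rw [mul_mulVec]
    ext i; fin_cases i <;> simp [Matrix.vecHead, Matrix.vecTail] <;> ring
  intro g hg
  have hdet : (g : Matrix (Fin 3) (Fin 3) F).det = 1 := congrArg Units.val (MonoidHom.mem_ker.mp hg)
  have htop := H1.SL_eq_top_of_transvection_mem
    (M.comap (Matrix.SpecialLinearGroup.toGL : Matrix.SpecialLinearGroup (Fin 3) F →* GL (Fin 3) F))
    (fun i j hij c => by
      rw [Subgroup.mem_comap]
      fin_cases i <;> fin_cases j <;> (try exact absurd rfl hij)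
      · convert hE c 0 using 1
        refine ext3 fun v => ?_
        ext k; fin_cases k <;> simp [transvection3, Matrix.vecHead, Matrix.vecTail]
      · convert hE 0 c using 1
        refine ext3 fun v => ?_
        ext k; fin_cases k <;> simp [transvection3, Matrix.vecHead, Matrix.vecTail]
      · convert M.mul_mem (M.mul_mem hw (h12 (-c))) hw using 1
        refine ext3 fun v => ?_
        rw [mul_mulVec, mul_mulVec]
        ext k; fin_cases k <;> simp [transvection3, Matrix.vecHead, Matrix.vecTail] <;> ring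
      · convert h12 c using 1
        refine ext3 fun v => ?_
        ext k; fin_cases k <;> simp [transvection3, Matrix.vecHead, Matrix.vecTail]
      · convert hlow c using 1
        refine ext3 fun v => ?_
        ext k; fin_cases k <;> simp [transvection3, Matrix.vecHead, Matrix.vecTail] <;> ring
      · convert M.mul_mem (M.mul_mem hw (hE (-c) 0)) hw using 1
        refine ext3 fun v => ?_
        rw [mul_mulVec, mul_mulVec]
        ext k; fin_cases k <;> simp [transvection3, Matrix.vecHead, Matrix.vecTail] <;> ring)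
  have := Subgroup.mem_comap.mp (htop.ge (Subgroup.mem_top
    (G := Matrix.SpecialLinearGroup (Fin 3) F) (⟨(g : Matrix (Fin 3) (Fin 3) F), hdet⟩ : Matrix.SpecialLinearGroup (Fin 3) F)))
  convert this using 1
  exact Units.ext rfl

/-- An isotropic vector is moved to a multiple of `e₀` by the isometries. -/
theorem exists_to_e0 (hM : HasIso M) {a : Fin 3 → F} (ha : qStd a = 0) :
    ∃ k ∈ M, ∃ c : F, (k : Matrix (Fin 3) (Fin 3) F) *ᵥ a = c • ![1, 0, 0] := by
  by_cases h2a : a 2 = 0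
  · refine ⟨1, M.one_mem, a 0, ?_⟩
    have h1 : a 1 = 0 := by simpa [qStd, h2a] using ha
    ext i; fin_cases i <;> simp [h2a, h1]
  · refine ⟨swp * uni (-(a 1 / a 2)), M.mul_mem (swp_mem hM) (uni_mem hM _), a 2, ?_⟩
    simp only [qStd] at ha
    rw [mul_mulVec]
    ext i; fin_cases i <;> simp <;> field_simp
    · ring
    · linear_combination ha

/-- An element making an anisotropic vector isotropic gives an elation with isotropic centre. -/
theorem el_of_isotropic (hM : HasIso M) (h2 : (2 : F) ≠ 0) {h : GL (Fin 3) F} (hh : h ∈ M)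
    {p : Fin 3 → F} (hp : qStd p ≠ 0) (hhp : qStd ((h : Matrix (Fin 3) (Fin 3) F) *ᵥ p) = 0) :
    ∀ c : F, el 0 c ∈ M := by
  obtain ⟨k, hk, c, hc⟩ := exists_to_e0 hM hhp
  set g := k * h with hg
  have hgM : g ∈ M := M.mul_mem hk hh
  have hgp : (g : Matrix (Fin 3) (Fin 3) F) *ᵥ p = c • ![1, 0, 0] := by rw [hg, mul_mulVec, hc]
  set S := g * refl p hp * g⁻¹ with hS
  have hSM : S ∈ M := M.mul_mem (M.mul_mem hgM (refl_mem hM p hp)) (M.inv_mem hgM)
  set A := ((g⁻¹ : GL (Fin 3) F) : Matrix (Fin 3) (Fin 3) F) with hA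
  let ψ : Fin 3 → F := fun j =>
    c * (qStd p)⁻¹ * (2 * (p 1 * A 1 j) + p 0 * A 2 j + p 2 * A 0 j)
  have hSv : ∀ v, (S : Matrix (Fin 3) (Fin 3) F) *ᵥ v =
      (ψ 0 * v 0 + ψ 1 * v 1 + ψ 2 * v 2) • ![1, 0, 0] - v := by
    intro v
    rw [hS, mul_mulVec, mul_mulVec, refl_mulVec, Matrix.mulVec_sub, Matrix.mulVec_smul, hgp,
      H98.gl_mulVec_inv, smul_smul]
    congr 2
    simp only [ψ, bStd, hA, Matrix.mulVec, dotProduct, Fin.sum_univ_three]
    ring
  have hψ0 : ψ 0 = 2 := by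
    have hSS : S * S = 1 := by
      have : refl p hp * refl p hp = 1 := ext3 fun v => by
        rw [mul_mulVec, refl_mulVec, refl_mulVec, Units.val_one, Matrix.one_mulVec]
        have h1 : qStd p * (qStd p)⁻¹ = 1 := mul_inv_cancel₀ hp
        ext i
        simp only [bStd, qStd, Pi.sub_apply, Pi.smul_apply, smul_eq_mul] at h1 ⊢
        linear_combination
          (2 * (2 * (p 1 * v 1) + p 0 * v 2 + p 2 * v 0) * (p 1 ^ 2 + p 0 * p 2)⁻¹ * p i) * h1
      rw [hS, show g * refl p hp * g⁻¹ * (g * refl p hp * g⁻¹) = g * (refl p hp * refl p hp) * g⁻¹ by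
        group, this, mul_one, mul_inv_cancel]
    have hfix : (S : Matrix (Fin 3) (Fin 3) F) *ᵥ (c • ![1, 0, 0]) = c • ![1, 0, 0] := by
      rw [← hgp, hS, mul_mulVec, mul_mulVec, H98.gl_inv_mulVec, refl_mulVec, bStd_self,
        mul_assoc, mul_inv_cancel₀ hp, mul_one, two_smul, add_sub_cancel_right]
    have hc0 : c ≠ 0 := by
      intro h0
      rw [h0, zero_smul] at hgp
      have h3 : p = 0 := H98.gl_mulVec_injective g (by simpa using hgp)
      exact hp (by simp [h3, qStd])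
    rw [hSv] at hfix
    have := congrFun hfix 0
    simp at this
    exact mul_right_cancel₀ hc0 (by linear_combination this)
  have hu := uni_mem hM (1 : F)
  have hP : uni 1 * S * (uni 1)⁻¹ * S = el (-4) (2 + ψ 1) := ext3 fun v => by
    have hui : (uni (1 : F))⁻¹ = uni (-1) := inv_eq_of_mul_eq_one_right (ext3 fun v => by
      rw [mul_mulVec, Units.val_one, Matrix.one_mulVec]; ext i; fin_cases i <;> simp [Matrix.vecHead, Matrix.vecTail] <;> ring)
    rw [mul_mulVec, mul_mulVec, mul_mulVec, hui, hSv, hSv]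
    ext i; fin_cases i <;> simp [hψ0, Matrix.vecHead, Matrix.vecTail] <;> ring
  refine root_of_el hM h2 (hP ▸ M.mul_mem (M.mul_mem (M.mul_mem hu hSM) (M.inv_mem hu)) hSM)
    (Or.inl ?_)
  rw [neg_ne_zero, show (4 : F) = 2 * 2 by norm_num]
  exact mul_ne_zero h2 h2

/-- An element that is no similarity gives an elation with isotropic centre. -/
theorem el_of_not_sim (hM : HasIso M) (h2 : (2 : F) ≠ 0) {g : GL (Fin 3) F} (hg : g ∈ M)
    (hns : g ∉ Cfsg.Geo.quadSimilarityGroup (qStd (F := F))) : ∀ c : F, el 0 c ∈ M := by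
  by_cases hpres : ∃ p : Fin 3 → F, qStd p ≠ 0 ∧ qStd ((g : Matrix (Fin 3) (Fin 3) F) *ᵥ p) = 0
  · obtain ⟨p, hp, hgp⟩ := hpres
    exact el_of_isotropic hM h2 hg hp hgp
  push Not at hpres
  set G := (g : Matrix (Fin 3) (Fin 3) F) with hG
  by_cases hpol : ∀ p x : Fin 3 → F, qStd p ≠ 0 →
      bStd (G *ᵥ p) (G *ᵥ x) * qStd p = qStd (G *ᵥ p) * bStd p x
  · refine absurd ?_ hns
    set lam := qStd (G *ᵥ ![0, 1, 0]) with hl
    have hq1 : qStd (![0, 1, 0] : Fin 3 → F) = 1 := by simp [qStd]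
    have hlam : lam ≠ 0 := hpres _ (by rw [hq1]; exact one_ne_zero)
    have key : ∀ e : Fin 3 → F, qStd e = 0 → bStd ![0, 1, 0] e = 0 → e ≠ 0 →
        ∀ x, bStd (G *ᵥ e) (G *ᵥ x) = lam * bStd e x := by
      intro e he hme he0
      have hqa : qStd (![0, 1, 0] + e) = 1 := by rw [qStd_add, hq1, he, hme]; ring
      have hqb : qStd (![0, 1, 0] + (-1 : F) • e) = 1 := by
        have : bStd ![0, 1, 0] ((-1 : F) • e) = -bStd ![0, 1, 0] e := by
          simp [bStd]
        rw [qStd_add, qStd_smul, hq1, he, this, hme]; ring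
      obtain ⟨μ, hμ⟩ : ∃ μ, μ = qStd (G *ᵥ (![0, 1, 0] + e)) := ⟨_, rfl⟩
      obtain ⟨ν, hν⟩ : ∃ ν, ν = qStd (G *ᵥ (![0, 1, 0] + (-1 : F) • e)) := ⟨_, rfl⟩
      have hA : ∀ x, bStd (G *ᵥ e) (G *ᵥ x) = (μ - lam) * bStd ![0, 1, 0] x + μ * bStd e x := by
        intro x
        have h1 := hpol _ x (by rw [hqa]; exact one_ne_zero)
        have h0 := hpol ![0, 1, 0] x (by rw [hq1]; exact one_ne_zero)
        rw [hqa, ← hμ, Matrix.mulVec_add] at h1
        rw [hq1, ← hl] at h0
        simp only [bStd, Pi.add_apply] at h1 h0 ⊢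
        linear_combination h1 - h0
      have hB : ∀ x, bStd (G *ᵥ e) (G *ᵥ x) = (lam - ν) * bStd ![0, 1, 0] x + ν * bStd e x := by
        intro x
        have h1 := hpol _ x (by rw [hqb]; exact one_ne_zero)
        have h0 := hpol ![0, 1, 0] x (by rw [hq1]; exact one_ne_zero)
        rw [hqb, ← hν, Matrix.mulVec_add, Matrix.mulVec_smul] at h1
        rw [hq1, ← hl] at h0
        simp only [bStd, Pi.add_apply, Pi.smul_apply, smul_eq_mul] at h1 h0 ⊢
        linear_combination h0 - h1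
      obtain ⟨y, hy, hy'⟩ : ∃ y, bStd ![0, 1, 0] y = 0 ∧ bStd e y ≠ 0 := by
        have he1 : e 1 = 0 := by
          have : (2 : F) * e 1 = 0 := by simpa [bStd] using hme
          exact (mul_eq_zero.1 this).resolve_left h2
        by_cases he2 : e 2 = 0
        · refine ⟨![0, 0, 1], by simp [bStd], ?_⟩
          simp [bStd]
          intro h0
          exact he0 (by ext i; fin_cases i <;> simp [h0, he1, he2])
        · exact ⟨![1, 0, 0], by simp [bStd], by simp [bStd, he2]⟩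
      have hμν : μ = ν := by
        have := (hA y).symm.trans (hB y)
        rw [hy, mul_zero, mul_zero, zero_add, zero_add] at this
        exact mul_right_cancel₀ hy' this
      have hμl : μ = lam := by
        have := (hA ![0, 1, 0]).symm.trans (hB ![0, 1, 0])
        rw [← hμν, bStd_self, hq1] at this
        have h4 : (2 : F) * 2 * (μ - lam) = 0 := by linear_combination this
        exact sub_eq_zero.1 ((mul_eq_zero.1 h4).resolve_left (mul_ne_zero h2 h2))
      intro x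
      rw [hA x, hμl]; ring
    refine ⟨Units.mk0 lam hlam, fun v => ?_⟩
    have k0 := key ![1, 0, 0] (by simp [qStd]) (by simp [bStd]) (by simp)
    have k2 := key ![0, 0, 1] (by simp [qStd]) (by simp [bStd]) (by simp)
    have k1 := hpol ![0, 1, 0] v (by rw [hq1]; exact one_ne_zero)
    rw [hq1, ← hl, mul_one] at k1
    have hv : v = v 0 • ![1, 0, 0] + v 1 • ![0, 1, 0] + v 2 • ![0, 0, 1] := by
      ext i; fin_cases i <;> simp
    refine mul_left_cancel₀ h2 ?_
    rw [Units.val_mk0, ← bStd_self, mul_left_comm, ← bStd_self]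
    conv_lhs => arg 1; rw [hv, Matrix.mulVec_add, Matrix.mulVec_add, Matrix.mulVec_smul,
      Matrix.mulVec_smul, Matrix.mulVec_smul]
    have k0' := k0 v
    have k2' := k2 v
    simp only [bStd, Pi.add_apply, Pi.smul_apply, smul_eq_mul] at k0' k1 k2' ⊢
    simp only [Matrix.cons_val_zero, Matrix.cons_val_one, Matrix.cons_val] at k0' k1 k2'
    linear_combination (v 0) * k0' + (v 1) * k1 + (v 2) * k2'
  push Not at hpol
  obtain ⟨p, x₀, hp, hx₀⟩ := hpol
  set w := G *ᵥ p with hw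
  have hwq : qStd w ≠ 0 := hpres p hp
  set τ := g * refl p hp * g⁻¹ * refl w hwq with hτ
  have hτM : τ ∈ M :=
    M.mul_mem (M.mul_mem (M.mul_mem hg (refl_mem hM p hp)) (M.inv_mem hg)) (refl_mem hM w hwq)
  let η : (Fin 3 → F) → F := fun x =>
    bStd w x * (qStd w)⁻¹ - bStd p (((g⁻¹ : GL (Fin 3) F) : Matrix (Fin 3) (Fin 3) F) *ᵥ x) * (qStd p)⁻¹
  have hτv : ∀ x, (τ : Matrix (Fin 3) (Fin 3) F) *ᵥ x = x + η x • w := by
    intro x
    have hgw : ((g⁻¹ : GL (Fin 3) F) : Matrix (Fin 3) (Fin 3) F) *ᵥ w = p := H98.gl_inv_mulVec g p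
    have e1 : ((g⁻¹ : GL (Fin 3) F) : Matrix (Fin 3) (Fin 3) F) *ᵥ
        ((refl w hwq : Matrix (Fin 3) (Fin 3) F) *ᵥ x) =
        (bStd w x * (qStd w)⁻¹) • p - ((g⁻¹ : GL (Fin 3) F) : Matrix (Fin 3) (Fin 3) F) *ᵥ x := by
      rw [refl_mulVec, Matrix.mulVec_sub, Matrix.mulVec_smul, hgw]
    rw [hτ, mul_mulVec, mul_mulVec, mul_mulVec, e1, refl_mulVec, Matrix.mulVec_sub, Matrix.mulVec_smul,
      Matrix.mulVec_sub, Matrix.mulVec_smul, H98.gl_mulVec_inv]
    have hbl : bStd p ((bStd w x * (qStd w)⁻¹) • p -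
        ((g⁻¹ : GL (Fin 3) F) : Matrix (Fin 3) (Fin 3) F) *ᵥ x) =
        bStd w x * (qStd w)⁻¹ * (2 * qStd p) -
          bStd p (((g⁻¹ : GL (Fin 3) F) : Matrix (Fin 3) (Fin 3) F) *ᵥ x) := by
      rw [← bStd_self]; simp only [bStd, Pi.sub_apply, Pi.smul_apply, smul_eq_mul]; ring
    rw [hbl, ← hw]
    ext i
    simp only [η, Pi.add_apply, Pi.sub_apply, Pi.smul_apply, smul_eq_mul]
    field_simp
    ring
  have hη : ∃ q : Fin 3 → F, qStd q = 0 ∧ η q ≠ 0 := by
    by_contra hc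
    push Not at hc
    have hlin : ∀ x, η x = x 0 * η ![1, 0, 0] + x 1 * η ![0, 1, 0] + x 2 * η ![0, 0, 1] := by
      intro x
      simp only [η, bStd, Matrix.mulVec, dotProduct, Fin.sum_univ_three]
      simp
      ring
    have a0 := hc ![1, 0, 0] (by simp [qStd])
    have a2 := hc ![0, 0, 1] (by simp [qStd])
    have a1 := hc ![-1, 1, 1] (by simp [qStd])
    rw [hlin, a0, a2] at a1
    simp at a1
    refine hx₀ ?_
    have := hlin (G *ᵥ x₀)
    rw [a0, a1, a2, mul_zero, mul_zero, mul_zero] at this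
    simp only [η, hw, hG, H98.gl_inv_mulVec] at this
    rw [hw, hG] at hwq
    rw [hG]
    field_simp at this
    linear_combination this
  obtain ⟨q, hq, hηq⟩ := hη
  have hηw : η w = 0 := by
    have hgw : ((g⁻¹ : GL (Fin 3) F) : Matrix (Fin 3) (Fin 3) F) *ᵥ w = p := H98.gl_inv_mulVec g p
    simp only [η, hgw, bStd_self]
    field_simp
    ring
  have hadd : ∀ x y c, η (x + c • y) = η x + c * η y := by
    intro x y c
    simp only [η, bStd, Matrix.mulVec_add, Matrix.mulVec_smul, Pi.add_apply, Pi.smul_apply, smul_eq_mul]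
    ring
  have h2v : ((τ * τ : GL (Fin 3) F) : Matrix (Fin 3) (Fin 3) F) *ᵥ q = q + (2 * η q) • w := by
    rw [mul_mulVec, hτv, hτv, hadd, hηw, mul_zero, add_zero, add_assoc, ← add_smul, ← two_mul]
  by_cases h1 : qStd ((τ : Matrix (Fin 3) (Fin 3) F) *ᵥ q) = 0
  · refine el_of_isotropic hM h2 (M.inv_mem (M.mul_mem hτM hτM)) (p := q + (2 * η q) • w) ?_ ?_
    · intro h0
      rw [hτv, qStd_add, qStd_smul, hq] at h1
      rw [qStd_add, qStd_smul, hq] at h0
      simp only [bStd, Pi.smul_apply, smul_eq_mul] at h0 h1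
      have : (2 : F) * (η q ^ 2 * qStd w) = 0 := by linear_combination h0 - 2 * h1
      exact mul_ne_zero (pow_ne_zero 2 hηq) hwq ((mul_eq_zero.1 this).resolve_left h2)
    · rw [← h2v, H98.gl_inv_mulVec]; exact hq
  · exact el_of_isotropic hM h2 (M.inv_mem hτM) h1 (by rw [H98.gl_inv_mulVec]; exact hq)

/-- The standard similarity group is maximal in `SL₃`. -/
theorem std_maximal [Finite F] (h2 : (2 : F) ≠ 0) :
    Cfsg.Geo.IsMaximalIn (Cfsg.Geo.specialLinear (Fin 3) F)
      (Cfsg.Geo.quadSimilarityGroup (qStd (F := F)) ⊓ Cfsg.Geo.specialLinear (Fin 3) F) := by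
  refine H98.isMaximalIn_of inf_le_right ⟨el 1 0, glOne_mem _ _, fun hm => ?_⟩
    fun M h1 h2' g hgM hgH => ?_
  · obtain ⟨c, hc⟩ := hm.1
    have a := hc ![0, 1, 0]
    have b := hc ![0, 1, 1]
    simp [qStd] at a b
    rw [← a] at b
    simp at b
  · have hM : HasIso M := fun k hk hiso =>
      h1 ⟨⟨1, fun v => by rw [hiso v, Units.val_one, one_mul]⟩, hk⟩
    exact sl_le_of_root hM h2 (el_of_not_sim hM h2 hgM fun h => hgH ⟨h, h2' hgM⟩)

end Cfsg.Agent.H4.SLThree
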