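import Cfsg.Agent.H4.SLThree.SingerAssembly
import Cfsg.Agent.H6.SingerGleason
import Cfsg.Agent.H6.SingerBound
import Cfsg.Agent.H99.SingerElation
import Cfsg.Agent.H99.SingerSolvable
import Cfsg.Agent.S0205

/-!
The normaliser of a cubic field subalgebra is maximal in `SL₃` for fields without exactly four elements.
-/

set_option autoImplicit false

namespace Cfsg.Agent.H4.SLThree

variable {F : Type*} [Field F] [Fintype F]

/-- Conjunct (3) of the geometric maximality statement for `SL₃`. -/
theorem singer_normalizer_maximal :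
    Fintype.card F ≠ 4 → ∀ K : Subalgebra F (Matrix (Fin 3) (Fin 3) F), Cfsg.Geo.IsFieldSubalgebra 3 K →
      Cfsg.Geo.IsMaximalIn (Cfsg.Geo.specialLinear (Fin 3) F)
        (Cfsg.Geo.subalgebraNormalizer K ⊓ Cfsg.Geo.specialLinear (Fin 3) F) :=
  Singer.maximal_of_pieces (fun M hM => S0205.result (G := M) hM) H99.SingerElation.elationPiece
    H6.SingerGleason.gleasonPiece H99.SingerSolvable.solvablePiece H6.SingerBound.boundPiece
    H6.SingerBound.arith

end Cfsg.Agent.H4.SLThree
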