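import Cfsg.Agent.H4.SLThree.SingerInvolution

/-!
The normaliser of a cubic field subalgebra is maximal in `SL₃`, given the five pieces.
-/

set_option autoImplicit false
set_option linter.unusedSectionVars false

namespace Cfsg.Agent.H4.SLThree.Singer

variable {F : Type*} [Field F] [Fintype F]

/-- Conjunct (3) from the pieces, given that groups of odd order are solvable. -/
theorem maximal_of_pieces
    (hodd : ∀ M : Subgroup (GL (Fin 3) F), Odd (Nat.card M) → Group.IsSolvable M) (he : ElationPiece (F := F)) (hg : GleasonPiece (F := F))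
    (hs : SolvablePiece (F := F)) (hb : BoundPiece (F := F)) (ha : ArithPiece) :
    Fintype.card F ≠ 4 → ∀ K : Subalgebra F (Matrix (Fin 3) (Fin 3) F), Cfsg.Geo.IsFieldSubalgebra 3 K →
      Cfsg.Geo.IsMaximalIn (Cfsg.Geo.specialLinear (Fin 3) F)
        (Cfsg.Geo.subalgebraNormalizer K ⊓ Cfsg.Geo.specialLinear (Fin 3) F) := by
  intro h4 K hF
  have hK : Facts K := facts hF h4
  refine ⟨lt_of_le_of_ne inf_le_right fun e => ?_, fun M hHM hMS => ?_⟩
  · exact H58.ExtField.not_sl_le Nat.prime_three (by simp) hF (e ▸ inf_le_left)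
  by_cases hne : M = Cfsg.Geo.subalgebraNormalizer K ⊓ Cfsg.Geo.specialLinear (Fin 3) F
  · exact Or.inl hne
  by_cases hel : ∃ φ a, φ ≠ 0 ∧ a ≠ 0 ∧ HasEl M φ a
  · obtain ⟨htr, htc⟩ := he K hK M ((singer_le_norm hK).trans hHM) hMS hel
    exact Or.inr (le_antisymm hMS (hg M htr htc))
  · refine absurd ?_ hne
    have hno : NoEl M := fun φ a hφ ha' h => hel ⟨φ, a, hφ, ha', h⟩
    have hsol : Group.IsSolvable M := hodd M (odd_of_noEl hK hb ha hHM hMS hne hno)
    exact le_antisymm (le_inf (hs K hK M ((singer_le_norm hK).trans hHM) hMS hsol) hMS) hHM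

end Cfsg.Agent.H4.SLThree.Singer
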