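import Cfsg.Agent.H4.SLThree.SingerFacts

/-!
Orbit counts for the Singer group inside an overgroup.

The scalars of determinant one are the only elements of the Singer group fixing a coset outside the normaliser, or
fixing a conjugate of an involution, so all these orbits have the same length.
-/

set_option autoImplicit false
set_option linter.unusedSectionVars false
set_option linter.style.haveILetI false

namespace Cfsg.Agent.H4.SLThree.Singer

open scoped Matrix

/-- Burnside's count when every element fixes either all points or exactly the points of `S`. -/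
theorem burnside_split {G X : Type*} [Group G] [Finite G] [Finite X] [MulAction G X] (Z : G → Prop)
    (S : Set X) (hS : ∀ g : G, ∀ x ∈ S, g • x = x) (hZ : ∀ g, Z g → ∀ x : X, g • x = x)
    (hnZ : ∀ g, ¬ Z g → ∀ x : X, g • x = x → x ∈ S) :
    ∃ R : ℕ, Nat.card {g // Z g} * Nat.card X = Nat.card {g // Z g} * Nat.card S + R * Nat.card G := by
  classical
  haveI := Fintype.ofFinite G
  haveI := Fintype.ofFinite X
  haveI : Fintype (Quotient (MulAction.orbitRel G X)) := Fintype.ofFinite _
  have h := MulAction.sum_card_fixedBy_eq_card_orbits_mul_card_group G X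
  have hfix : ∀ g : G, Fintype.card (MulAction.fixedBy X g) =
      if Z g then Nat.card X else Nat.card S := fun g => by
    rw [← Nat.card_eq_fintype_card]
    split
    · next hg => exact Nat.card_congr (Equiv.subtypeUnivEquiv fun x => hZ g hg x)
    · next hg => exact Nat.card_congr (Equiv.subtypeEquivRight fun x => ⟨hnZ g hg x, hS g x⟩)
  simp only [hfix, Finset.sum_ite, Finset.sum_const, smul_eq_mul] at h
  rw [← Nat.card_eq_fintype_card (α := G)] at h
  have hsplit := Finset.card_filter_add_card_filter_not (s := (Finset.univ : Finset G)) (p := Z)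
  rw [Finset.card_univ, ← Nat.card_eq_fintype_card] at hsplit
  have hd : Nat.card {g // Z g} = (Finset.univ.filter Z).card := by
    rw [Nat.card_eq_fintype_card, Fintype.card_subtype]
  rw [← hd] at h hsplit
  set O := Fintype.card (Quotient (MulAction.orbitRel G X))
  have hSX : Nat.card S ≤ Nat.card X := Finite.card_subtype_le _
  have hOS : Nat.card S ≤ O := by
    have hle : Nat.card {g // Z g} * Nat.card S ≤ Nat.card {g // Z g} * Nat.card X := by gcongr
    by_contra hlt
    have hlt' := Nat.mul_lt_mul_of_pos_right (not_le.1 hlt) (Nat.card_pos : 0 < Nat.card G)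
    rw [← h] at hlt'
    nth_rewrite 1 [← hsplit] at hlt'
    rw [mul_add] at hlt'
    linarith [mul_comm (Nat.card S) (Nat.card {g // Z g}),
      mul_comm (Nat.card S) (Finset.univ.filter fun g => ¬ Z g).card]
  obtain ⟨R, hR⟩ := Nat.le.dest hOS
  refine ⟨R, ?_⟩
  rw [← hR] at h
  rw [← hsplit] at h ⊢
  linarith [mul_comm (Nat.card S) (Finset.univ.filter fun g => ¬ Z g).card,
    mul_comm (Nat.card S) (Nat.card {g // Z g})]

variable {F : Type*} [Field F] [Fintype F] {K : Subalgebra F (Matrix (Fin 3) (Fin 3) F)} (hK : Facts K)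

theorem singer_le_norm (hK : Facts K) :
    singer K hK.inv_mem ≤ Cfsg.Geo.subalgebraNormalizer K ⊓ Cfsg.Geo.specialLinear (Fin 3) F := fun k hk =>
  ⟨H58.ExtField.mem_normalizer_of_conj fun x hx => K.mul_mem (K.mul_mem hk.1 hx) (hK.inv_mem k hk.1),
    MonoidHom.mem_ker.2 (Units.ext hk.2)⟩

/-- The number of scalar matrices of determinant one. -/
noncomputable def numScal (F : Type*) [Field F] : ℕ := Nat.card (rootsOfUnity 3 F)

include hK

theorem card_scal : Nat.card {k : singer K hK.inv_mem // IsScal ((k : GL (Fin 3) F) : Matrix (Fin 3) (Fin 3) F)} =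
    numScal F := by
  refine (Nat.card_congr (Equiv.ofBijective
    (fun u : rootsOfUnity 3 F => (⟨⟨Units.map (Matrix.scalar (Fin 3)).toMonoidHom (u : Fˣ), ?_, ?_⟩,
      ((u : Fˣ) : F), ?_⟩ : {k : singer K hK.inv_mem // IsScal ((k : GL (Fin 3) F) : Matrix (Fin 3) (Fin 3) F)}))
    ⟨fun u v h => ?_, fun k => ?_⟩)).symm
  · rw [Units.coe_map]
    show Matrix.scalar (Fin 3) ((u : Fˣ) : F) ∈ K
    rw [Matrix.scalar_apply, ← Matrix.smul_one_eq_diagonal]
    exact hK.scalar_mem _
  · rw [Units.coe_map]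
    show (Matrix.scalar (Fin 3) ((u : Fˣ) : F)).det = 1
    rw [Matrix.scalar_apply, Matrix.det_diagonal, Finset.prod_const, Finset.card_univ, Fintype.card_fin,
      ← Units.val_pow_eq_pow_val, (mem_rootsOfUnity 3 _).1 u.2, Units.val_one]
  · show Matrix.scalar (Fin 3) ((u : Fˣ) : F) = _
    rw [Matrix.scalar_apply, ← Matrix.smul_one_eq_diagonal]
  · have := congrFun (congrFun (congrArg (fun k => ((k.1.1 : GL (Fin 3) F) : Matrix (Fin 3) (Fin 3) F)) h) 0) 0
    exact Subtype.ext (Units.ext (by simpa using this))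
  · obtain ⟨⟨g, hgK, hgd⟩, c, hc⟩ := k
    have hd : c ^ 3 = 1 := by
      have := hgd; rw [show (g : Matrix (Fin 3) (Fin 3) F) = c • 1 from hc, Matrix.det_smul, Matrix.det_one,
        Fintype.card_fin, mul_one] at this
      exact this
    have hc0 : c ≠ 0 := fun h => by rw [h] at hd; simp at hd
    refine ⟨⟨Units.mk0 c hc0, (mem_rootsOfUnity 3 _).2 (Units.ext (by simpa using hd))⟩, ?_⟩
    refine Subtype.ext (Subtype.ext (Units.ext ?_))
    show Matrix.scalar (Fin 3) c = (g : Matrix (Fin 3) (Fin 3) F)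
    rw [Matrix.scalar_apply, ← Matrix.smul_one_eq_diagonal]
    exact hc.symm

omit hK

theorem numScal_pos : 0 < numScal F := Nat.card_pos

theorem numScal_cases : numScal F = 1 ∨ numScal F = 3 ∧ 3 ∣ Fintype.card F - 1 := by
  have hle : numScal F ≤ 3 := card_rootsOfUnity F 3
  rcases eq_or_ne (numScal F) 1 with h | h
  · exact Or.inl h
  · obtain ⟨u, hu⟩ : ∃ u : rootsOfUnity 3 F, u ≠ 1 := by
      by_contra hc
      push Not at hc
      exact h (Nat.card_eq_one_iff_unique.2 ⟨⟨fun a b => (hc a).trans (hc b).symm⟩, ⟨1⟩⟩)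
    have ho : orderOf u = 3 := by
      have hp : u ^ 3 = 1 := Subtype.ext ((mem_rootsOfUnity 3 _).1 u.2)
      haveI : Fact (Nat.Prime 3) := ⟨Nat.prime_three⟩
      exact orderOf_eq_prime hp hu
    have h3 : 3 ∣ numScal F := ho ▸ orderOf_dvd_natCard u
    have h1 := numScal_pos (F := F)
    have he : numScal F = 3 := le_antisymm hle (Nat.le_of_dvd h1 h3)
    refine Or.inr ⟨he, ?_⟩
    have := Subgroup.card_subgroup_dvd_card (rootsOfUnity 3 F)
    rw [Nat.card_units, Nat.card_eq_fintype_card (α := F)] at this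
    exact he ▸ this

include hK

/-- An element of the field that is no scalar stays so after cubing. -/
theorem cube_not_scal {k : GL (Fin 3) F} (hk : k ∈ singer K hK.inv_mem)
    (hns : ¬ IsScal (k : Matrix (Fin 3) (Fin 3) F)) :
    ¬ IsScal ((k ^ 3 : GL (Fin 3) F) : Matrix (Fin 3) (Fin 3) F) := fun h =>
  hns (hK.scalar_of_pow k hk 3 (by norm_num) h)

omit hK

/-- A scalar matrix is central. -/
theorem scal_central {k : GL (Fin 3) F} (h : IsScal (k : Matrix (Fin 3) (Fin 3) F)) (g : GL (Fin 3) F) :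
    k * g = g * k := by
  obtain ⟨c, hc⟩ := h
  refine Units.ext ?_
  rw [Units.val_mul, Units.val_mul, hc, smul_mul_assoc, mul_smul_comm, one_mul, mul_one]

include hK

/-- The index of the normaliser in an overgroup. -/
theorem norm_count (M : Subgroup (GL (Fin 3) F))
    (hHM : Cfsg.Geo.subalgebraNormalizer K ⊓ Cfsg.Geo.specialLinear (Fin 3) F ≤ M)
    (hMS : M ≤ Cfsg.Geo.specialLinear (Fin 3) F)
    (hne : M ≠ Cfsg.Geo.subalgebraNormalizer K ⊓ Cfsg.Geo.specialLinear (Fin 3) F) :
    ∃ r : ℕ, 1 ≤ r ∧ numScal F * Nat.card M = 3 * (Fintype.card F ^ 2 + Fintype.card F + 1) *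
      (numScal F + r * (Fintype.card F ^ 2 + Fintype.card F + 1)) := by
  set H := Cfsg.Geo.subalgebraNormalizer K ⊓ Cfsg.Geo.specialLinear (Fin 3) F with hH
  set C := singer K hK.inv_mem with hC
  have hCM : C ≤ M := (singer_le_norm hK).trans hHM
  let H' := H.subgroupOf M
  let C' := C.subgroupOf M
  obtain ⟨R, hR⟩ := burnside_split (G := C') (X := M ⧸ H')
    (fun k => IsScal (((k : M) : GL (Fin 3) F) : Matrix (Fin 3) (Fin 3) F)) {((1 : M) : M ⧸ H')}
    (fun k x hx => by
      rw [Set.mem_singleton_iff.1 hx]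
      refine QuotientGroup.eq.2 ?_
      show ((k : M) * 1)⁻¹ * 1 ∈ H'
      rw [mul_one, mul_one]
      exact Subgroup.mem_subgroupOf.2 (H.inv_mem (singer_le_norm hK k.2)))
    (fun k hk x => by
      obtain ⟨g, rfl⟩ := QuotientGroup.mk_surjective x
      refine QuotientGroup.eq.2 ?_
      show ((k : M) * g)⁻¹ * g ∈ H'
      rw [Subgroup.mem_subgroupOf]
      have : ((((k : M) * g)⁻¹ * g : M) : GL (Fin 3) F) = ((k : M) : GL (Fin 3) F)⁻¹ := by
        push_cast
        rw [scal_central hk, mul_inv_rev, mul_assoc, inv_mul_cancel, mul_one]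
      exact this ▸ H.inv_mem (singer_le_norm hK k.2))
    (fun k hk x hx => by
      obtain ⟨g, rfl⟩ := QuotientGroup.mk_surjective x
      have hmem := Subgroup.mem_subgroupOf.1 (QuotientGroup.eq.1 hx.symm)
      refine QuotientGroup.eq.2 ?_
      rw [mul_one, Subgroup.mem_subgroupOf]
      refine H.inv_mem ⟨?_, hMS g.2⟩
      set u : GL (Fin 3) F := ((g : M) : GL (Fin 3) F)
      set v : GL (Fin 3) F := ((k : M) : GL (Fin 3) F) with hv
      have hmem' : u⁻¹ * (v * u) ∈ H := hmem
      have h3 := hK.norm_cube _ hmem'.1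
      rw [show u⁻¹ * (v * u) = u⁻¹ * v * u⁻¹⁻¹ by rw [inv_inv, mul_assoc], conj_pow, Units.val_mul, Units.val_mul]
        at h3
      have hkC : v ∈ C := k.2
      exact (Subgroup.inv_mem_iff _).1 (hK.norm u⁻¹ _ (C.pow_mem hkC 3).1 (cube_not_scal hK hkC hk) h3))
  have hcC : Nat.card C' = Fintype.card F ^ 2 + Fintype.card F + 1 :=
    (Nat.card_congr (Subgroup.subgroupOfEquivOfLe hCM).toEquiv).trans hK.card_singer
  have hcH : Nat.card H' = 3 * (Fintype.card F ^ 2 + Fintype.card F + 1) :=
    (Nat.card_congr (Subgroup.subgroupOfEquivOfLe hHM).toEquiv).trans hK.card_norm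
  have hcd : Nat.card {k : C' // IsScal (((k : M) : GL (Fin 3) F) : Matrix (Fin 3) (Fin 3) F)} = numScal F := by
    rw [← card_scal hK]
    exact Nat.card_congr ((Subgroup.subgroupOfEquivOfLe hCM).toEquiv.subtypeEquiv fun k => Iff.rfl)
  rw [hcC, hcd, Nat.card_coe_set_eq, Set.ncard_singleton, mul_one]
    at hR
  have hM := Subgroup.card_eq_card_quotient_mul_card_subgroup H'
  refine ⟨R, Nat.one_le_iff_ne_zero.2 fun h0 => hne ?_, ?_⟩
  · rw [h0, zero_mul, add_zero] at hR
    have h1 : Nat.card (M ⧸ H') = 1 := Nat.eq_of_mul_eq_mul_left numScal_pos (hR.trans (mul_one _).symm)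
    refine le_antisymm (fun g hg => ?_) hHM
    haveI := (Nat.card_eq_one_iff_unique.1 h1).1
    have := QuotientGroup.eq.1 (Subsingleton.elim ((1 : M) : M ⧸ H') (⟨g, hg⟩ : M))
    rwa [inv_one, one_mul, Subgroup.mem_subgroupOf] at this
  · rw [hM, ← mul_assoc, hR, hcH, mul_comm]

end Cfsg.Agent.H4.SLThree.Singer
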