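import Cfsg.Agent.H4.SLThree.SingerSpec
import Cfsg.Agent.H58.ExtField.Field
import Cfsg.Agent.H98.Decomp
import Mathlib.FieldTheory.Finite.GaloisField
import Mathlib.Algebra.Algebra.Subalgebra.IsSimpleOrder

/-!
The facts about a cubic field subalgebra of the matrix algebra.
-/

set_option autoImplicit false
set_option linter.unusedSectionVars false

namespace Cfsg.Agent.H4.SLThree.Singer

open scoped Matrix
open H58.ExtField (FK)

/-- A finite extension of finite fields is Galois. -/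
theorem card_aut_gen (F : Type*) [Field F] [Fintype F] (L : Type*) [Field L] [Algebra F L] [Finite L] :
    Nat.card (L ≃ₐ[F] L) = Module.finrank F L :=
  IsGalois.card_aut_eq_finrank F L

variable {F : Type*} [Field F] [Fintype F] {K : Subalgebra F (Matrix (Fin 3) (Fin 3) F)}
  (hK : Cfsg.Geo.IsFieldSubalgebra 3 K)

include hK

theorem fk_isDomain : IsDomain ↥K := (H58.ExtField.isField_subalgebra hK).isDomain

/-- Evaluation at a non-zero vector is injective on the field. -/
theorem k_eq_zero {k : Matrix (Fin 3) (Fin 3) F} (hk : k ∈ K) {v : Fin 3 → F} (hv : v ≠ 0)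
    (h : k *ᵥ v = 0) : k = 0 := by
  by_contra hk0
  obtain ⟨y, hy, hxy⟩ := hK.inv k hk hk0
  have := congrArg (y *ᵥ ·) h
  simp only [Matrix.mulVec_zero, Matrix.mulVec_mulVec, ← hK.comm k hk y hy, hxy,
    Matrix.one_mulVec] at this
  exact hv this

/-- The field is simply transitive on non-zero vectors. -/
theorem k_exists {v : Fin 3 → F} (hv : v ≠ 0) (w : Fin 3 → F) : ∃ k ∈ K, k *ᵥ v = w := by
  let f : ↥K →ₗ[F] (Fin 3 → F) :=
    { toFun := fun k => (k : Matrix (Fin 3) (Fin 3) F) *ᵥ v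
      map_add' := fun a b => Matrix.add_mulVec _ _ _
      map_smul' := fun c a => Matrix.smul_mulVec c _ _ }
  have hinj : Function.Injective f := by
    rw [injective_iff_map_eq_zero]
    exact fun k hk => Subtype.ext (k_eq_zero hK k.2 hv hk)
  obtain ⟨k, hk⟩ := (LinearMap.injective_iff_surjective_of_finrank_eq_finrank
    (by rw [hK.finrank_eq, Module.finrank_fin_fun])).1 hinj w
  exact ⟨k, k.2, hk⟩

/-- A non-scalar element generates the field. -/
theorem k_le_of_mem {k : Matrix (Fin 3) (Fin 3) F} (hk : k ∈ K) (hns : ¬ IsScal k)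
    (S : Subalgebra F (Matrix (Fin 3) (Fin 3) F)) (hS : k ∈ S) : K ≤ S := by
  haveI := fk_isDomain hK
  haveI := Subalgebra.isSimpleOrder_of_finrank_prime F ↥K (by rw [hK.finrank_eq]; exact Nat.prime_three)
  rcases IsSimpleOrder.eq_bot_or_eq_top (S.comap K.val) with h | h
  · have : (⟨k, hk⟩ : ↥K) ∈ S.comap K.val := hS
    rw [h, Algebra.mem_bot] at this
    obtain ⟨c, hc⟩ := this
    refine absurd ⟨c, ?_⟩ hns
    have := congrArg Subtype.val hc
    simpa [Algebra.algebraMap_eq_smul_one] using this.symm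
  · intro x hx
    have : (⟨x, hx⟩ : ↥K) ∈ S.comap K.val := h ▸ Algebra.mem_top
    exact this

theorem k_cent {k : Matrix (Fin 3) (Fin 3) F} (hk : k ∈ K) (hns : ¬ IsScal k)
    (x : Matrix (Fin 3) (Fin 3) F) (hx : x * k = k * x) : x ∈ K := by
  have hall : ∀ y ∈ K, x * y = y * x := fun y hy => by
    have := k_le_of_mem hK hk hns (Subalgebra.centralizer F {x}) (by
      rw [Subalgebra.mem_centralizer_iff]; intro g hg
      rw [Set.mem_singleton_iff.1 hg]; exact hx) hy
    rw [Subalgebra.mem_centralizer_iff] at this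
    exact this x rfl
  set v : Fin 3 → F := Pi.single 0 1 with hv
  have hv0 : v ≠ 0 := fun h => by simpa [hv] using congrFun h 0
  obtain ⟨k0, hk0, hk0v⟩ := k_exists hK hv0 (x *ᵥ v)
  have : x = k0 := by
    refine Matrix.ext_of_mulVec_single fun i => ?_
    obtain ⟨y, hy, hyv⟩ := k_exists hK hv0 (Pi.single i 1)
    rw [← hyv, Matrix.mulVec_mulVec, Matrix.mulVec_mulVec, hall y hy, hK.comm k0 hk0 y hy,
      ← Matrix.mulVec_mulVec, ← Matrix.mulVec_mulVec, hk0v]
  exact this ▸ hk0

theorem k_norm (g : GL (Fin 3) F) {k : Matrix (Fin 3) (Fin 3) F} (hk : k ∈ K) (hns : ¬ IsScal k)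
    (h : (g : Matrix (Fin 3) (Fin 3) F) * k * ((g⁻¹ : GL (Fin 3) F) : Matrix (Fin 3) (Fin 3) F) ∈ K) :
    g ∈ Cfsg.Geo.subalgebraNormalizer K := by
  let c : Matrix (Fin 3) (Fin 3) F →ₐ[F] Matrix (Fin 3) (Fin 3) F :=
    AlgHom.ofLinearMap
      { toFun := fun x => (g : Matrix (Fin 3) (Fin 3) F) * x * ((g⁻¹ : GL (Fin 3) F) : Matrix (Fin 3) (Fin 3) F)
        map_add' := fun a b => by rw [mul_add, add_mul]
        map_smul' := fun r a => by rw [mul_smul_comm, smul_mul_assoc, RingHom.id_apply] }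
      (by simp) (fun a b => by
        simp only [LinearMap.coe_mk, AddHom.coe_mk, mul_assoc, Units.inv_mul_cancel_left])
  exact H58.ExtField.mem_normalizer_of_conj fun x hx => k_le_of_mem hK hk hns (K.comap c) h hx

theorem k_irred {k : Matrix (Fin 3) (Fin 3) F} (hk : k ∈ K) (hns : ¬ IsScal k)
    (W : Submodule F (Fin 3 → F)) (hW : ∀ w ∈ W, k *ᵥ w ∈ W) : W = ⊥ ∨ W = ⊤ := by
  let S : Subalgebra F (Matrix (Fin 3) (Fin 3) F) :=
    { carrier := {x | ∀ w ∈ W, x *ᵥ w ∈ W}
      mul_mem' := fun {a b} ha hb w hw => by rw [← Matrix.mulVec_mulVec]; exact ha _ (hb w hw)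
      one_mem' := fun w hw => by rw [Matrix.one_mulVec]; exact hw
      add_mem' := fun {a b} ha hb w hw => by
        rw [Matrix.add_mulVec]; exact W.add_mem (ha w hw) (hb w hw)
      zero_mem' := fun w _ => by rw [Matrix.zero_mulVec]; exact W.zero_mem
      algebraMap_mem' := fun c w hw => by
        rw [Algebra.algebraMap_eq_smul_one, Matrix.smul_mulVec, Matrix.one_mulVec]
        exact W.smul_mem c hw }
  have hle : K ≤ S := k_le_of_mem hK hk hns S hW
  by_cases h : W = ⊥
  · exact Or.inl h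
  · obtain ⟨v, hv, hv0⟩ := Submodule.exists_mem_ne_zero_of_ne_bot h
    refine Or.inr ((Submodule.eq_top_iff').2 fun w => ?_)
    obtain ⟨x, hx, rfl⟩ := k_exists hK hv0 w
    exact hle hx v hv

theorem k_inv_mem (g : GL (Fin 3) F) (hg : (g : Matrix (Fin 3) (Fin 3) F) ∈ K) :
    ((g⁻¹ : GL (Fin 3) F) : Matrix (Fin 3) (Fin 3) F) ∈ K := by
  obtain ⟨y, hy, hgy⟩ := hK.inv _ hg g.ne_zero
  rwa [Units.inv_eq_of_mul_eq_one_right hgy]

theorem k_scalar (c : F) : c • (1 : Matrix (Fin 3) (Fin 3) F) ∈ K := K.smul_mem K.one_mem c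

/-- The identification of the field with the space, at the first basis vector. -/
noncomputable def evalEquiv : FK hK ≃ₗ[F] (Fin 3 → F) :=
  LinearEquiv.ofBijective
    ({ toFun := fun k => k.mat *ᵥ Pi.single 0 1
       map_add' := fun a b => Matrix.add_mulVec _ _ _
       map_smul' := fun c a => by rw [FK.mat_smul, Matrix.smul_mulVec]; rfl } :
      FK hK →ₗ[F] (Fin 3 → F))
    ⟨fun a b hab => by
      have hv : (Pi.single 0 1 : Fin 3 → F) ≠ 0 := fun h => by simpa using congrFun h 0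
      have h0 : (a.mat - b.mat) *ᵥ (Pi.single 0 1 : Fin 3 → F) = 0 := by
        rw [Matrix.sub_mulVec, sub_eq_zero]; exact hab
      exact Subtype.ext (sub_eq_zero.1 (k_eq_zero hK (K.sub_mem (a : ↥K).2 (b : ↥K).2) hv h0)),
    fun w => by
      obtain ⟨k, hk, hkw⟩ := k_exists hK
        (show (Pi.single 0 1 : Fin 3 → F) ≠ 0 from fun h => by simpa using congrFun h 0) w
      exact ⟨FK.mk hK k hk, hkw⟩⟩

theorem evalEquiv_apply (k : FK hK) : evalEquiv hK k = k.mat *ᵥ Pi.single 0 1 := rfl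

theorem evalEquiv_mul (a b : FK hK) : evalEquiv hK (a * b) = a.mat *ᵥ evalEquiv hK b := by
  rw [evalEquiv_apply, evalEquiv_apply, Matrix.mulVec_mulVec]
  rfl

/-- The norm is the determinant. -/
theorem norm_eq_det (k : FK hK) : Algebra.norm F k = k.mat.det := by
  rw [Algebra.norm_eq_matrix_det (Module.Basis.ofEquivFun (evalEquiv hK))]
  congr 1
  refine Matrix.ext_of_mulVec_single fun j => ?_
  have h := Algebra.leftMulMatrix_mulVec_repr (Module.Basis.ofEquivFun (evalEquiv hK)) k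
    ((evalEquiv hK).symm (Pi.single j 1))
  have e : ∀ x, ⇑((Module.Basis.ofEquivFun (evalEquiv hK)).repr x) = evalEquiv hK x := fun x =>
    funext fun i => Module.Basis.ofEquivFun_repr_apply _ x i
  rw [e, e, evalEquiv_mul, LinearEquiv.apply_symm_apply] at h
  exact h

theorem fk_card : Nat.card (FK hK) = Fintype.card F ^ 3 := by
  show Nat.card ↥K = _
  rw [Module.natCard_eq_pow_finrank (K := F) (V := ↥K), hK.finrank_eq, Nat.card_eq_fintype_card]

theorem exp_div : (Fintype.card F ^ 3 - 1) / (Fintype.card F - 1) =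
    Fintype.card F ^ 2 + Fintype.card F + 1 := by
  have h1 : 2 ≤ Fintype.card F := Fintype.one_lt_card
  obtain ⟨r, hr⟩ : ∃ r, Fintype.card F = r + 2 := ⟨Fintype.card F - 2, by omega⟩
  have h : (r + 2) ^ 3 = (r + 2 - 1) * ((r + 2) ^ 2 + (r + 2) + 1) + 1 := by
    rw [show r + 2 - 1 = r + 1 by omega]; ring
  rw [hr, h, Nat.add_sub_cancel, Nat.mul_div_cancel_left _ (by omega)]

theorem k_pow_eq_det {k : Matrix (Fin 3) (Fin 3) F} (hk : k ∈ K) :
    k ^ (Fintype.card F ^ 2 + Fintype.card F + 1) = k.det • 1 := by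
  have h := FiniteField.algebraMap_norm_eq_pow (K := F) (x := FK.mk hK k hk)
  rw [fk_card, Nat.card_eq_fintype_card, exp_div hK, norm_eq_det] at h
  have := congrArg Subtype.val h
  rw [← Algebra.algebraMap_eq_smul_one]
  refine Eq.trans ?_ this.symm
  exact (SubmonoidClass.coe_pow (⟨k, hk⟩ : ↥K) _).symm

theorem k_det_surj {c : F} : ∃ k ∈ K, k.det = c := by
  obtain ⟨x, hx⟩ := FiniteField.norm_surjective F (FK hK) c
  exact ⟨x.mat, (x : ↥K).2, by rw [← norm_eq_det, hx]⟩

/-- A scalar matrix of determinant one has trivial cube. -/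
theorem scal_cube {g : GL (Fin 3) F} (hs : IsScal (g : Matrix (Fin 3) (Fin 3) F))
    (hd : (g : Matrix (Fin 3) (Fin 3) F).det = 1) : g ^ 3 = 1 := by
  obtain ⟨c, hc⟩ := hs
  rw [hc, Matrix.det_smul, Matrix.det_one, Fintype.card_fin, mul_one] at hd
  refine Units.ext ?_
  rw [Units.val_pow_eq_pow_val, hc, smul_pow, one_pow, hd, one_smul, Units.val_one]

theorem singer_pow {g : GL (Fin 3) F} (hg : g ∈ singer K (k_inv_mem hK)) :
    g ^ (Fintype.card F ^ 2 + Fintype.card F + 1) = 1 := by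
  refine Units.ext ?_
  rw [Units.val_pow_eq_pow_val, k_pow_eq_det hK hg.1, hg.2, one_smul, Units.val_one]

theorem k_scalar_of_pow {g : GL (Fin 3) F} (hg : g ∈ singer K (k_inv_mem hK))
    {n : ℕ} (hn : n ∣ 720) (hs : IsScal ((g ^ n : GL (Fin 3) F) : Matrix (Fin 3) (Fin 3) F)) :
    IsScal (g : Matrix (Fin 3) (Fin 3) F) := by
  set q := Fintype.card F with hq
  have h1 : g ^ (n * 3) = 1 := by
    rw [pow_mul]; exact scal_cube hK hs ((singer K (k_inv_mem hK)).pow_mem hg n).2
  have h2 : g ^ (Nat.gcd (n * 3) (q ^ 2 + q + 1)) = 1 := pow_gcd_eq_one.mpr ⟨h1, singer_pow hK hg⟩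
  have hdvd : Nat.gcd (n * 3) (q ^ 2 + q + 1) ∣ Nat.gcd 3 (q - 1) := by
    have h2' : (q ^ 2 + q + 1) % 2 = 1 := by
      have : 2 ∣ q * (q + 1) := (Nat.even_mul_succ_self q).two_dvd
      have e : q ^ 2 + q = q * (q + 1) := by ring
      omega
    have hmod : ∀ r : ℕ, (q ^ 2 + q + 1) % r = ((q % r) ^ 2 + q % r + 1) % r := fun r => by
      rw [Nat.add_mod, Nat.add_mod (q ^ 2), Nat.pow_mod, Nat.add_mod ((q % r) ^ 2 + q % r),
        Nat.add_mod ((q % r) ^ 2), Nat.mod_mod]
    have c2 : Nat.Coprime (q ^ 2 + q + 1) (2 ^ 4) :=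
      Nat.Coprime.pow_right 4 (Nat.prime_two.coprime_iff_not_dvd.2 (by omega)).symm
    have c5 : Nat.Coprime (q ^ 2 + q + 1) 5 :=
      (Nat.Prime.coprime_iff_not_dvd (by norm_num : Nat.Prime 5)).2 (by
        rw [Nat.dvd_iff_mod_eq_zero, hmod]
        have := Nat.mod_lt q (show 0 < 5 by norm_num)
        interval_cases q % 5 <;> norm_num) |>.symm
    have e : n * 3 ∣ 2 ^ 4 * 5 * 3 ^ 3 := by
      have := Nat.mul_dvd_mul_right hn 3; simpa using this
    have hg3 : Nat.gcd (n * 3) (q ^ 2 + q + 1) ∣ 3 ^ 3 :=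
      (((c2.mul_right c5).coprime_dvd_left (Nat.gcd_dvd_right _ _))).dvd_of_dvd_mul_left
        ((Nat.gcd_dvd_left _ _).trans e)
    have hg3' := Nat.gcd_dvd_right (n * 3) (q ^ 2 + q + 1)
    have hN9 : ¬ 9 ∣ q ^ 2 + q + 1 := by
      rw [Nat.dvd_iff_mod_eq_zero, hmod]
      have := Nat.mod_lt q (show 0 < 9 by norm_num)
      interval_cases q % 9 <;> norm_num
    obtain ⟨i, hi, hgi⟩ := (Nat.dvd_prime_pow Nat.prime_three).1 hg3
    rw [hgi] at hg3' ⊢
    rcases i with _ | _ | i
    · exact one_dvd _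
    · refine Nat.dvd_gcd (dvd_refl _) ?_
      have h3 : (q ^ 2 + q + 1) % 3 = 0 := Nat.mod_eq_zero_of_dvd (by simpa using hg3')
      rw [hmod] at h3
      have h1q : 1 ≤ q := Fintype.card_pos
      have := Nat.mod_lt q (show 0 < 3 by norm_num)
      interval_cases hm : q % 3 <;> simp_all <;> omega
    · exact absurd ((show 9 ∣ 3 ^ (i + 1 + 1) from ⟨3 ^ i, by ring⟩).trans hg3') hN9
  have h3 : g ^ Nat.gcd 3 (q - 1) = 1 := by
    obtain ⟨u, hu⟩ := hdvd; rw [hu, pow_mul, h2, one_pow]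
  -- such an element satisfies `x ^ (q - 1) = 1`, so is fixed by the Frobenius map
  have h4 : g ^ (q - 1) = 1 := by
    obtain ⟨u, hu⟩ := Nat.gcd_dvd_right 3 (q - 1); rw [hu, pow_mul, h3, one_pow]
  set x := FK.mk hK _ hg.1 with hx
  have hxq : x ^ q = x := by
    have h5 : g ^ q = g := by
      conv_lhs => rw [show q = q - 1 + 1 from (Nat.succ_pred_eq_of_pos Fintype.card_pos).symm]
      rw [pow_succ, h4, one_mul]
    refine Subtype.ext ?_
    have := congrArg Units.val h5
    rw [Units.val_pow_eq_pow_val] at this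
    exact (SubmonoidClass.coe_pow (x : ↥K) q).trans this
  obtain ⟨c, hc⟩ : x ∈ Set.range (algebraMap F (FK hK)) := by
    by_contra hnot
    classical
    let P : Polynomial (FK hK) := Polynomial.X ^ q - Polynomial.X
    have hP : P ≠ 0 := FiniteField.X_pow_card_sub_X_ne_zero _ Fintype.one_lt_card
    have hdeg : P.natDegree = q := FiniteField.X_pow_card_sub_X_natDegree_eq _ Fintype.one_lt_card
    let S : Finset (FK hK) := insert x (Finset.univ.map ⟨algebraMap F (FK hK), (algebraMap F _).injective⟩)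
    have hroot : S ⊆ P.roots.toFinset := by
      intro y hy
      rw [Multiset.mem_toFinset, Polynomial.mem_roots hP]
      rcases Finset.mem_insert.1 hy with rfl | hy
      · simp [P, Polynomial.IsRoot, hxq]
      · obtain ⟨a, -, rfl⟩ := Finset.mem_map.1 hy
        simp [P, Polynomial.IsRoot, hq, ← map_pow, FiniteField.pow_card]
    have hcard : S.card = q + 1 := by
      rw [Finset.card_insert_of_notMem (by simpa using hnot), Finset.card_map, Finset.card_univ]
    have := (Finset.card_le_card hroot).trans (Multiset.toFinset_card_le _)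
    have := this.trans (Polynomial.card_roots' P)
    omega
  refine ⟨c, ?_⟩
  have := congrArg Subtype.val hc
  rw [← Algebra.algebraMap_eq_smul_one]
  exact this.symm

theorem k_card_singer :
    Nat.card (singer K (k_inv_mem hK)) = Fintype.card F ^ 2 + Fintype.card F + 1 := by
  let N : (FK hK)ˣ →* Fˣ := Units.map (Algebra.norm F (S := FK hK))
  have hs : Function.Surjective N := FiniteField.unitsMap_norm_surjective F (FK hK)
  let e : N.ker ≃ singer K (k_inv_mem hK) :=
    { toFun := fun u => ⟨Units.map (H58.ExtField.FK.matHom hK).toMonoidHom u.1, ((u.1 : FK hK) : ↥K).2, by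
        have := congrArg Units.val (MonoidHom.mem_ker.1 u.2)
        exact (norm_eq_det hK _).symm.trans this⟩
      invFun := fun g => ⟨⟨FK.mk hK _ g.2.1, FK.mk hK _ ((singer K (k_inv_mem hK)).inv_mem g.2).1,
          Subtype.ext g.1.mul_inv, Subtype.ext g.1.inv_mul⟩,
        MonoidHom.mem_ker.2 (Units.ext ((norm_eq_det hK _).trans g.2.2))⟩
      left_inv := fun u => rfl
      right_inv := fun g => Subtype.ext (Units.ext rfl) }
  rw [← Nat.card_congr e]
  have h := Subgroup.card_eq_card_quotient_mul_card_subgroup N.ker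
  rw [Nat.card_congr (QuotientGroup.quotientKerEquivOfSurjective N hs).toEquiv, Nat.card_units,
    Nat.card_units, fk_card, Nat.card_eq_fintype_card] at h
  have hq : 1 < Fintype.card F := Fintype.one_lt_card
  rw [← exp_div hK, h, Nat.mul_div_cancel_left _ (by omega)]

/-- The automorphism of the field induced by a normalising element. -/
noncomputable def autHom :
    ↥(Cfsg.Geo.subalgebraNormalizer K ⊓ Cfsg.Geo.specialLinear (Fin 3) F) →* (FK hK ≃ₐ[F] FK hK) where
  toFun g :=
    AlgEquiv.ofBijective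
      ({ toFun := fun x => FK.mk hK ((g.1 : Matrix (Fin 3) (Fin 3) F) * x.mat *
            ((g.1⁻¹ : GL (Fin 3) F) : Matrix (Fin 3) (Fin 3) F)) ((g.2.1 _).1 (x : ↥K).2)
         map_one' := Subtype.ext (by show _ * (1 : Matrix (Fin 3) (Fin 3) F) * _ = 1; simp)
         map_mul' := fun a b => Subtype.ext (by
           show _ * (a.mat * b.mat) * _ = _ * a.mat * _ * (_ * b.mat * _)
           simp [mul_assoc])
         map_zero' := Subtype.ext (by show _ * (0 : Matrix (Fin 3) (Fin 3) F) * _ = 0; simp)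
         map_add' := fun a b => Subtype.ext (by
           show _ * (a.mat + b.mat) * _ = _ * a.mat * _ + _ * b.mat * _
           rw [mul_add, add_mul])
         commutes' := fun c => Subtype.ext (by
           show _ * (algebraMap F (Matrix (Fin 3) (Fin 3) F) c) * _ = algebraMap F _ c
           rw [← Algebra.commutes, mul_assoc, Units.mul_inv, mul_one]) } : FK hK →ₐ[F] FK hK)
      (Finite.injective_iff_bijective.1 (RingHom.injective _))
  map_one' := AlgEquiv.ext fun x => Subtype.ext (by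
    show ((1 : GL (Fin 3) F) : Matrix (Fin 3) (Fin 3) F) * x.mat * ((1⁻¹ : GL (Fin 3) F) : Matrix _ _ F) = x.mat
    simp)
  map_mul' g h := AlgEquiv.ext fun x => Subtype.ext (by
    show ((g.1 * h.1 : GL (Fin 3) F) : Matrix (Fin 3) (Fin 3) F) * x.mat *
      (((g.1 * h.1)⁻¹ : GL (Fin 3) F) : Matrix _ _ F) = _ * (_ * x.mat * _) * _
    simp [mul_inv_rev, mul_assoc])

theorem card_aut : Nat.card (FK hK ≃ₐ[F] FK hK) = 3 :=
  (card_aut_gen F (FK hK)).trans (H58.ExtField.FK.finrank_eq hK)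

/-- An element of determinant one with a non-trivial automorphism. -/
theorem autHom_surjective : Function.Surjective (autHom hK) := by
  intro σ
  set f := H98.glOfEquiv ((evalEquiv hK).symm.trans (σ.toLinearEquiv.trans (evalEquiv hK))) with hf
  have hfv : ∀ y, (f : Matrix (Fin 3) (Fin 3) F) *ᵥ evalEquiv hK y = evalEquiv hK (σ y) := fun y => by
    rw [hf, H98.glOfEquiv_mulVec]; simp
  obtain ⟨k, hk, hkd⟩ := k_det_surj hK (c := ((f : Matrix (Fin 3) (Fin 3) F).det)⁻¹)
  have hd0 : (f : Matrix (Fin 3) (Fin 3) F).det ≠ 0 :=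
    ((Matrix.isUnit_iff_isUnit_det _).1 f.isUnit).ne_zero
  have hk0 : k.det ≠ 0 := by rw [hkd]; exact inv_ne_zero hd0
  set u : GL (Fin 3) F := Matrix.GeneralLinearGroup.mkOfDetNeZero k hk0 with hu
  have hu' : (u : Matrix (Fin 3) (Fin 3) F) = k := rfl
  have hconj : ∀ x : FK hK, (f : Matrix (Fin 3) (Fin 3) F) * x.mat = (σ x).mat * f := fun x => by
    refine Matrix.ext_of_mulVec_single fun i => ?_
    obtain ⟨y, hy⟩ := (evalEquiv hK).surjective (Pi.single i 1)
    rw [← hy, ← Matrix.mulVec_mulVec, ← Matrix.mulVec_mulVec, ← evalEquiv_mul, hfv, hfv, ← evalEquiv_mul,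
      map_mul]
  have hgx : ∀ x : FK hK, ((u * f : GL (Fin 3) F) : Matrix (Fin 3) (Fin 3) F) * x.mat *
      (((u * f)⁻¹ : GL (Fin 3) F) : Matrix (Fin 3) (Fin 3) F) = (σ x).mat := fun x => by
    rw [Units.mul_inv_eq_iff_eq_mul, Units.val_mul, mul_assoc, hconj, ← mul_assoc, ← mul_assoc, hu',
      hK.comm k hk (σ x).mat (σ x : ↥K).2]
  have hmem : u * f ∈ Cfsg.Geo.subalgebraNormalizer K ⊓ Cfsg.Geo.specialLinear (Fin 3) F := by
    refine ⟨H58.ExtField.mem_normalizer_of_conj fun x hx => ?_, MonoidHom.mem_ker.2 (Units.ext ?_)⟩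
    · have := hgx (FK.mk hK x hx)
      exact this ▸ (σ (FK.mk hK x hx) : ↥K).2
    · show ((u * f : GL (Fin 3) F) : Matrix (Fin 3) (Fin 3) F).det = 1
      rw [Units.val_mul, Matrix.det_mul, hu', hkd, inv_mul_cancel₀ hd0]
  exact ⟨⟨u * f, hmem⟩, AlgEquiv.ext fun x => Subtype.ext (hgx x)⟩

theorem k_card_norm :
    Nat.card (Cfsg.Geo.subalgebraNormalizer K ⊓ Cfsg.Geo.specialLinear (Fin 3) F :
      Subgroup (GL (Fin 3) F)) = 3 * (Fintype.card F ^ 2 + Fintype.card F + 1) := by
  rw [Subgroup.card_eq_card_quotient_mul_card_subgroup (autHom hK).ker,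
    Nat.card_congr (QuotientGroup.quotientKerEquivOfSurjective _ (autHom_surjective hK)).toEquiv,
    card_aut, ← k_card_singer hK]
  congr 1
  refine Nat.card_congr
    { toFun := fun g => ⟨g.1.1, ?_, ?_⟩
      invFun := fun g => ⟨⟨g.1, ?_, MonoidHom.mem_ker.2 (Units.ext g.2.2)⟩, ?_⟩
      left_inv := fun g => rfl
      right_inv := fun g => rfl }
  · obtain ⟨v, hv⟩ : ∃ v : Fin 3 → F, v ≠ 0 := exists_ne 0
    obtain ⟨k, hk, hns⟩ : ∃ k ∈ K, ¬ IsScal k := by
      obtain ⟨w, hw⟩ : ∃ w, w ∉ Submodule.span F ({v} : Set (Fin 3 → F)) := by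
        by_contra hc
        push Not at hc
        have h1 := finrank_span_le_card (R := F) ({v} : Set (Fin 3 → F))
        rw [(Submodule.eq_top_iff').2 hc, finrank_top, Module.finrank_fin_fun] at h1
        simp at h1
      obtain ⟨k, hk, hkw⟩ := k_exists hK hv w
      refine ⟨k, hk, fun ⟨c, hc⟩ => hw ?_⟩
      rw [← hkw, hc, Matrix.smul_mulVec, Matrix.one_mulVec]
      exact Submodule.smul_mem _ _ (Submodule.subset_span rfl)
    refine k_cent hK hk hns _ ?_
    have := congrArg (fun s : FK hK ≃ₐ[F] FK hK => (s (FK.mk hK k hk)).mat) (MonoidHom.mem_ker.1 g.2)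
    exact (Units.mul_inv_eq_iff_eq_mul _).1 this
  · exact congrArg Units.val (MonoidHom.mem_ker.1 g.1.2.2)
  · exact H58.ExtField.mem_normalizer_of_conj fun x hx =>
      K.mul_mem (K.mul_mem g.2.1 hx) (k_inv_mem hK _ g.2.1)
  · refine MonoidHom.mem_ker.2 (AlgEquiv.ext fun x => Subtype.ext ?_)
    show (g.1 : Matrix (Fin 3) (Fin 3) F) * x.mat * _ = x.mat
    rw [hK.comm _ g.2.1 x.mat (x : ↥K).2, mul_assoc, Units.mul_inv, mul_one]

theorem k_norm_cube (g : GL (Fin 3) F) (hg : g ∈ Cfsg.Geo.subalgebraNormalizer K) :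
    ((g ^ 3 : GL (Fin 3) F) : Matrix (Fin 3) (Fin 3) F) ∈ K := by
  let σ : FK hK →ₐ[F] FK hK :=
    { toFun := fun x => FK.mk hK ((g : Matrix (Fin 3) (Fin 3) F) * x.mat *
          ((g⁻¹ : GL (Fin 3) F) : Matrix (Fin 3) (Fin 3) F)) ((hg _).1 (x : ↥K).2)
      map_one' := Subtype.ext (by show _ * (1 : Matrix (Fin 3) (Fin 3) F) * _ = 1; simp)
      map_mul' := fun a b => Subtype.ext (by
        show _ * (a.mat * b.mat) * _ = _ * a.mat * _ * (_ * b.mat * _)
        simp [mul_assoc])
      map_zero' := Subtype.ext (by show _ * (0 : Matrix (Fin 3) (Fin 3) F) * _ = 0; simp)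
      map_add' := fun a b => Subtype.ext (by
        show _ * (a.mat + b.mat) * _ = _ * a.mat * _ + _ * b.mat * _
        rw [mul_add, add_mul])
      commutes' := fun c => Subtype.ext (by
        show _ * (algebraMap F (Matrix (Fin 3) (Fin 3) F) c) * _ = algebraMap F _ c
        rw [← Algebra.commutes, mul_assoc, Units.mul_inv, mul_one]) }
  let τ : FK hK ≃ₐ[F] FK hK := AlgEquiv.ofBijective σ (Finite.injective_iff_bijective.1 σ.toRingHom.injective)
  have h3 : τ ^ 3 = 1 := by
    have := pow_card_eq_one' (G := FK hK ≃ₐ[F] FK hK) (x := τ)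
    rwa [card_aut hK] at this
  obtain ⟨k, hk, hns⟩ : ∃ k ∈ K, ¬ IsScal k := by
    by_contra hc
    push Not at hc
    have hv : (Pi.single 0 1 : Fin 3 → F) ≠ 0 := fun h => by simpa using congrFun h 0
    obtain ⟨k, hk, hkw⟩ := k_exists hK hv (Pi.single 1 1)
    obtain ⟨c, hc⟩ := hc k hk
    rw [hc, Matrix.smul_mulVec, Matrix.one_mulVec] at hkw
    simpa using congrFun hkw 1
  refine k_cent hK hk hns _ ?_
  have := congrArg FK.mat (congrArg (fun s : FK hK ≃ₐ[F] FK hK => s (FK.mk hK k hk)) h3)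
  have e : (g : Matrix (Fin 3) (Fin 3) F) * ((g : Matrix (Fin 3) (Fin 3) F) * ((g : Matrix (Fin 3) (Fin 3) F) *
      k * ((g⁻¹ : GL (Fin 3) F) : Matrix (Fin 3) (Fin 3) F)) * ((g⁻¹ : GL (Fin 3) F) : Matrix (Fin 3) (Fin 3) F)) *
      ((g⁻¹ : GL (Fin 3) F) : Matrix (Fin 3) (Fin 3) F) = k := this
  conv_rhs => rw [← e]
  simp [pow_succ, Units.val_mul, mul_assoc]

/-- The facts hold for every cubic field subalgebra when the field does not have four elements. -/
theorem facts (h4 : Fintype.card F ≠ 4) : Facts K where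
  field := hK
  card_ne := h4
  inv_mem := k_inv_mem hK
  scalar_mem := k_scalar hK
  exists_mulVec _ hv w := k_exists hK hv w
  eq_zero_of_mulVec _ hk _ hv h := k_eq_zero hK hk hv h
  irred _ hk hns W hW := k_irred hK hk hns W hW
  cent _ hk hns x hx := k_cent hK hk hns x hx
  norm g _ hk hns h := k_norm hK g hk hns h
  norm_cube g hg := k_norm_cube hK g hg
  pow_eq_det _ hk _ := k_pow_eq_det hK hk
  det_surj _ _ := k_det_surj hK
  card_singer := k_card_singer hK
  scalar_of_pow _ hg _ hn hs := k_scalar_of_pow hK hg hn hs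
  card_norm := k_card_norm hK

end Cfsg.Agent.H4.SLThree.Singer
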