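import Cfsg.Agent.H4.SLThree.SingerCount
import Cfsg.Agent.H98.MaximalBase
import Mathlib.LinearAlgebra.Projectivization.Cardinality
import Mathlib.LinearAlgebra.Matrix.Charpoly.Coeff

/-!
Involutions in a group without elations: they are homologies, determined by their centre and by their axis, with a
centraliser of order prime to the characteristic.
-/

set_option autoImplicit false
set_option linter.unusedSectionVars false
set_option linter.style.haveILetI false

namespace Cfsg.Agent.H4.SLThree.Singer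

open scoped Matrix
open H98 (transGL gl_ext transGL_mulVec)

variable {F : Type*} [Field F] [Fintype F] {M : Subgroup (GL (Fin 3) F)}

/-- No elation lies in `M`. -/
def NoEl (M : Subgroup (GL (Fin 3) F)) : Prop :=
  ∀ (φ : (Fin 3 → F) →ₗ[F] F) (a : Fin 3 → F), φ ≠ 0 → a ≠ 0 → ¬ HasEl M φ a

/-- The involution with centre `c` and axis `ker ψ`. -/
structure IsHom (t : GL (Fin 3) F) (c : Fin 3 → F) (ψ : (Fin 3 → F) →ₗ[F] F) : Prop where
  two : ψ c = 2
  apply_eq : ∀ v, (t : Matrix (Fin 3) (Fin 3) F) *ᵥ v = ψ v • c - v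

/-- An endomorphism of rank at most one is a dyad. -/
theorem exists_dyad (L : (Fin 3 → F) →ₗ[F] (Fin 3 → F)) (h : Module.finrank F (LinearMap.range L) ≤ 1) :
    ∃ (φ : (Fin 3 → F) →ₗ[F] F) (a : Fin 3 → F), a ≠ 0 ∧ ∀ v, L v = φ v • a := by
  obtain ⟨a, ha, hle⟩ : ∃ a : Fin 3 → F, a ≠ 0 ∧ LinearMap.range L ≤ Submodule.span F {a} := by
    by_cases h0 : LinearMap.range L = ⊥
    · exact ⟨Pi.single 0 1, fun e => by simpa using congrFun e 0, h0 ▸ bot_le⟩
    · obtain ⟨a, ha, ha0⟩ := Submodule.exists_mem_ne_zero_of_ne_bot h0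
      refine ⟨a, ha0, le_of_eq (Submodule.eq_of_le_of_finrank_le
        ((Submodule.span_singleton_le_iff_mem _ _).2 ha) ?_).symm⟩
      rwa [finrank_span_singleton ha0]
  obtain ⟨θ, hθ, -⟩ := H98.exists_functional (S := (⊥ : Submodule F (Fin 3 → F))) (x := a) (by simpa using ha)
  refine ⟨θ.comp L, a, ha, fun v => ?_⟩
  obtain ⟨μ, hμ⟩ := Submodule.mem_span_singleton.1 (hle (LinearMap.mem_range_self L v))
  rw [LinearMap.comp_apply, ← hμ, map_smul, hθ, smul_eq_mul, mul_one]

/-- An element `g` with `(g - 1)² = 0` is an elation. -/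
theorem hasEl_of_sq_zero {g : GL (Fin 3) F} (hg : g ∈ M) (hne : g ≠ 1)
    (h2 : ∀ v, (g : Matrix (Fin 3) (Fin 3) F) *ᵥ ((g : Matrix (Fin 3) (Fin 3) F) *ᵥ v - v) =
      (g : Matrix (Fin 3) (Fin 3) F) *ᵥ v - v) :
    ∃ φ a, φ ≠ 0 ∧ a ≠ 0 ∧ HasEl M φ a := by
  set L : (Fin 3 → F) →ₗ[F] (Fin 3 → F) := Matrix.mulVecLin (g : Matrix (Fin 3) (Fin 3) F) - LinearMap.id
  have hL : ∀ v, L v = (g : Matrix (Fin 3) (Fin 3) F) *ᵥ v - v := fun v => rfl
  have hr : Module.finrank F (LinearMap.range L) ≤ 1 := by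
    have hle : LinearMap.range L ≤ LinearMap.ker L := by
      rintro _ ⟨v, rfl⟩
      rw [LinearMap.mem_ker, hL, hL, h2, sub_self]
    have := Submodule.finrank_mono hle
    have hsum := LinearMap.finrank_range_add_finrank_ker L
    rw [Module.finrank_fin_fun] at hsum
    omega
  obtain ⟨φ, a, ha, hφ⟩ := exists_dyad L hr
  have hφ0 : φ ≠ 0 := fun h => hne (gl_ext fun v => by
    have := hφ v
    rw [h, LinearMap.zero_apply, zero_smul, hL, sub_eq_zero] at this
    rw [this, Units.val_one, Matrix.one_mulVec])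
  have hφa : φ a = 0 := by
    obtain ⟨v, hv⟩ : ∃ v, φ v ≠ 0 := by
      by_contra hc; push Not at hc; exact hφ0 (LinearMap.ext hc)
    have h := h2 v
    rw [← hL v, ← sub_eq_zero, ← hL (L v), hφ v, map_smul, hφ a, smul_smul, smul_eq_zero] at h
    exact (mul_eq_zero.1 (h.resolve_right ha)).resolve_left hv
  refine ⟨φ, a, hφ0, ha, hφa, ?_⟩
  convert hg using 1
  exact gl_ext fun v => by rw [transGL_mulVec, ← hφ, hL, add_sub_cancel]

/-- In characteristic two an involution is an elation. -/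
theorem hasEl_of_involution_two {t : GL (Fin 3) F} (ht : t ∈ M) (ht1 : t ≠ 1) (ht2 : t ^ 2 = 1)
    (h2 : (2 : F) = 0) : ∃ φ a, φ ≠ 0 ∧ a ≠ 0 ∧ HasEl M φ a := by
  refine hasEl_of_sq_zero ht ht1 fun v => ?_
  have : (t : Matrix (Fin 3) (Fin 3) F) *ᵥ ((t : Matrix (Fin 3) (Fin 3) F) *ᵥ v) = v := by
    rw [Matrix.mulVec_mulVec, ← Units.val_mul, ← sq, ht2, Units.val_one, Matrix.one_mulVec]
  rw [Matrix.mulVec_sub, this, ← sub_eq_zero]
  calc v - (t : Matrix (Fin 3) (Fin 3) F) *ᵥ v - ((t : Matrix (Fin 3) (Fin 3) F) *ᵥ v - v)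
      = (2 : F) • (v - (t : Matrix (Fin 3) (Fin 3) F) *ᵥ v) := by module
    _ = 0 := by rw [h2, zero_smul]

/-- The determinant of `x ↦ x + φ x • a`. -/
theorem det_eq_of_dyad {g : Matrix (Fin 3) (Fin 3) F} {φ : (Fin 3 → F) →ₗ[F] F} {a : Fin 3 → F}
    (h : ∀ v, g *ᵥ v = v + φ v • a) : g.det = 1 + φ a := by
  have e : g = H98.transMat φ a :=
    Matrix.ext_of_mulVec_single fun i => (h _).trans (H98.transMat_mulVec φ a _).symm
  rw [e, H98.transMat, Matrix.vecMulVec_eq Unit, Matrix.det_one_add_replicateCol_mul_replicateRow]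
  congr 1
  conv_rhs => rw [pi_eq_sum_univ' a]
  simp [dotProduct, map_sum, mul_comm]

/-- In odd characteristic an involution of determinant one is a homology. -/
theorem exists_isHom {t : GL (Fin 3) F} (hd : (t : Matrix (Fin 3) (Fin 3) F).det = 1) (ht1 : t ≠ 1)
    (ht2 : t ^ 2 = 1) (h2 : (2 : F) ≠ 0) : ∃ c ψ, IsHom t c ψ := by
  set T := (t : Matrix (Fin 3) (Fin 3) F)
  have hTT : ∀ v, T *ᵥ (T *ᵥ v) = v := fun v => by
    rw [Matrix.mulVec_mulVec, ← Units.val_mul, ← sq, ht2, Units.val_one, Matrix.one_mulVec]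
  set P : (Fin 3 → F) →ₗ[F] (Fin 3 → F) := Matrix.mulVecLin T + LinearMap.id
  set D : (Fin 3 → F) →ₗ[F] (Fin 3 → F) := Matrix.mulVecLin T - LinearMap.id
  have hP : ∀ v, P v = T *ᵥ v + v := fun v => rfl
  have hD : ∀ v, D v = T *ᵥ v - v := fun v => rfl
  by_cases hDr : Module.finrank F (LinearMap.range D) ≤ 1
  · exfalso
    obtain ⟨φ, a, ha, hφ⟩ := exists_dyad D hDr
    have hv : ∀ v, T *ᵥ v = v + φ v • a := fun v => by rw [← hφ, hD, add_sub_cancel]
    obtain ⟨v, hv0⟩ : ∃ v, φ v ≠ 0 := by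
      by_contra hc; push Not at hc
      exact ht1 (gl_ext fun v => by
        rw [show (t : Matrix (Fin 3) (Fin 3) F) *ᵥ v = _ from hv v, hc, zero_smul, add_zero, Units.val_one,
          Matrix.one_mulVec])
    have h := hTT v
    rw [hv v, Matrix.mulVec_add, hv v, Matrix.mulVec_smul, hv a, ← sub_eq_zero] at h
    have h' : (φ v * (2 + φ a)) • a = 0 := by rw [← h]; module
    have hφa : φ a = -2 := by
      rw [eq_neg_iff_add_eq_zero, add_comm]
      exact (mul_eq_zero.1 ((smul_eq_zero.1 h').resolve_right ha)).resolve_left hv0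
    have := det_eq_of_dyad hv
    rw [hd, hφa] at this
    exact h2 (by linear_combination this)
  · have hle : LinearMap.range D ≤ LinearMap.ker P := by
      rintro _ ⟨v, rfl⟩
      rw [LinearMap.mem_ker, hP, hD, Matrix.mulVec_sub, hTT]
      abel
    have hr : Module.finrank F (LinearMap.range P) ≤ 1 := by
      have := Submodule.finrank_mono hle
      have hsum := LinearMap.finrank_range_add_finrank_ker P
      rw [Module.finrank_fin_fun] at hsum
      omega
    obtain ⟨φ, c, hc, hφ⟩ := exists_dyad P hr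
    have hv : ∀ v, T *ᵥ v = φ v • c - v := fun v => by rw [← hφ, hP, add_sub_cancel_right]
    refine ⟨c, φ, ?_, hv⟩
    obtain ⟨v, hv0⟩ : ∃ v, φ v ≠ 0 := by
      by_contra hc'; push Not at hc'
      have hneg : T = -1 := Matrix.ext_of_mulVec_single fun i => by
        rw [hv, hc', zero_smul, zero_sub, Matrix.neg_mulVec, Matrix.one_mulVec]
      rw [hneg, Matrix.det_neg, Matrix.det_one, Fintype.card_fin] at hd
      exact h2 (by linear_combination -hd)
    have h := hTT v
    rw [hv v, Matrix.mulVec_sub, hv v, Matrix.mulVec_smul, hv c, ← sub_eq_zero] at h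
    have h' : (φ v * (φ c - 2)) • c = 0 := by rw [← h]; module
    exact sub_eq_zero.1 ((mul_eq_zero.1 ((smul_eq_zero.1 h').resolve_right hc)).resolve_left hv0)

variable {t t' : GL (Fin 3) F} {c c' : Fin 3 → F} {ψ ψ' : (Fin 3 → F) →ₗ[F] F}

theorem IsHom.ne_zero (h : IsHom t c ψ) (h2 : (2 : F) ≠ 0) : c ≠ 0 := fun e => h2 (by
  rw [← h.two, e, map_zero])

theorem IsHom.centre (h : IsHom t c ψ) : (t : Matrix (Fin 3) (Fin 3) F) *ᵥ c = c := by
  rw [h.apply_eq, h.two, two_smul, add_sub_cancel_right]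

theorem IsHom.smul (h : IsHom t c ψ) {r : F} (hr : r ≠ 0) : IsHom t (r • c) (r⁻¹ • ψ) :=
  ⟨by rw [LinearMap.smul_apply, map_smul, h.two, smul_eq_mul, smul_eq_mul, inv_mul_cancel_left₀ hr],
    fun v => by rw [h.apply_eq, LinearMap.smul_apply, smul_eq_mul, smul_smul, mul_right_comm,
      inv_mul_cancel₀ hr, one_mul]⟩

theorem IsHom.conj (h : IsHom t c ψ) (g : GL (Fin 3) F) :
    IsHom (g * t * g⁻¹) ((g : Matrix (Fin 3) (Fin 3) F) *ᵥ c)
      (ψ.comp (Matrix.mulVecLin ((g⁻¹ : GL (Fin 3) F) : Matrix (Fin 3) (Fin 3) F))) :=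
  ⟨by rw [LinearMap.comp_apply, Matrix.mulVecLin_apply, H98.gl_inv_mulVec, h.two],
    fun v => by
      rw [Units.val_mul, Units.val_mul, ← Matrix.mulVec_mulVec, ← Matrix.mulVec_mulVec, h.apply_eq,
        Matrix.mulVec_sub, Matrix.mulVec_smul, H98.gl_mulVec_inv]
      rfl⟩

/-- Two involutions with the same centre are equal. -/
theorem eq_of_centre (hM : NoEl M) (h2 : (2 : F) ≠ 0) (ht : t ∈ M) (ht' : t' ∈ M) (h : IsHom t c ψ)
    (h' : IsHom t' c ψ') : t = t' := by
  by_cases he : ψ' = ψ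
  · exact gl_ext fun v => by rw [h.apply_eq, h'.apply_eq, he]
  · have hc : (ψ' - ψ) c = 0 := by rw [LinearMap.sub_apply, h.two, h'.two, sub_self]
    refine absurd ⟨hc, ?_⟩ (hM (ψ' - ψ) c (sub_ne_zero.2 he) (h.ne_zero h2))
    convert M.mul_mem ht ht' using 1
    refine gl_ext fun v => ?_
    rw [transGL_mulVec, Units.val_mul, ← Matrix.mulVec_mulVec, h'.apply_eq, h.apply_eq, map_sub, map_smul,
      h.two, LinearMap.sub_apply, smul_eq_mul]
    module

/-- Proportional centres give equal involutions. -/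
theorem eq_of_centre' (hM : NoEl M) (h2 : (2 : F) ≠ 0) (ht : t ∈ M) (ht' : t' ∈ M) (h : IsHom t c ψ)
    (h' : IsHom t' c' ψ') {r : F} (hr : c' = r • c) : t = t' := by
  have hr0 : r ≠ 0 := fun e => h'.ne_zero h2 (by rw [hr, e, zero_smul])
  have := h'.smul (inv_ne_zero hr0)
  rw [hr, smul_smul, inv_mul_cancel₀ hr0, one_smul] at this
  exact eq_of_centre hM h2 ht ht' h this

/-- Incidence of centres and axes is symmetric. -/
theorem incidence_symm (hM : NoEl M) (h2 : (2 : F) ≠ 0) (ht : t ∈ M) (ht' : t' ∈ M) (h : IsHom t c ψ)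
    (h' : IsHom t' c' ψ') (h0 : ψ c' = 0) : ψ' c = 0 := by
  have hneg : (t : Matrix (Fin 3) (Fin 3) F) *ᵥ c' = (-1 : F) • c' := by
    rw [h.apply_eq, h0, zero_smul, zero_sub, neg_one_smul]
  have heq : t' = t * t' * t⁻¹ :=
    eq_of_centre' hM h2 ht' (M.mul_mem (M.mul_mem ht ht') (M.inv_mem ht)) h' (h'.conj t) hneg
  have hcomm : t * t' = t' * t := eq_mul_inv_iff_mul_eq.1 heq |>.symm
  have hfix := congrArg (fun g : GL (Fin 3) F => (g : Matrix (Fin 3) (Fin 3) F) *ᵥ c) hcomm
  simp only [Units.val_mul, ← Matrix.mulVec_mulVec, h.centre] at hfix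
  rw [h'.apply_eq, h.apply_eq, map_sub, map_smul, h0, smul_zero, zero_sub, h.two, ← sub_eq_zero] at hfix
  have hz : (ψ' c * 2) • c' = 0 := by
    rw [← neg_eq_zero, ← hfix]; module
  exact (mul_eq_zero.1 ((smul_eq_zero.1 hz).resolve_right (h'.ne_zero h2))).resolve_right h2

/-- An element commuting with a homology fixes its centre. -/
theorem IsHom.centre_of_commute (h : IsHom t c ψ) (h2 : (2 : F) ≠ 0) {g : GL (Fin 3) F}
    (hg : g * t = t * g) :
    (g : Matrix (Fin 3) (Fin 3) F) *ᵥ c = (ψ ((g : Matrix (Fin 3) (Fin 3) F) *ᵥ c) / 2) • c := by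
  have h1 := congrArg (fun x : GL (Fin 3) F => (x : Matrix (Fin 3) (Fin 3) F) *ᵥ c) hg
  simp only [Units.val_mul, ← Matrix.mulVec_mulVec, h.centre, h.apply_eq] at h1
  have h3 : (2 : F) • ((g : Matrix (Fin 3) (Fin 3) F) *ᵥ c) =
      ψ ((g : Matrix (Fin 3) (Fin 3) F) *ᵥ c) • c := by
    rw [two_smul]; nth_rewrite 2 [h1]; abel
  rw [div_eq_inv_mul, ← smul_smul, ← h3, smul_smul, inv_mul_cancel₀ h2, one_smul]

/-- An element commuting with a homology keeps its axis. -/
theorem IsHom.axis_of_commute (h : IsHom t c ψ) (h2 : (2 : F) ≠ 0) {g : GL (Fin 3) F}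
    (hg : g * t = t * g) {w : Fin 3 → F} (hw : ψ w = 0) : ψ ((g : Matrix (Fin 3) (Fin 3) F) *ᵥ w) = 0 := by
  have h1 := congrArg (fun x : GL (Fin 3) F => (x : Matrix (Fin 3) (Fin 3) F) *ᵥ w) hg
  simp only [Units.val_mul, ← Matrix.mulVec_mulVec, h.apply_eq, hw, zero_smul, zero_sub, Matrix.mulVec_neg]
    at h1
  have h3 : ψ ((g : Matrix (Fin 3) (Fin 3) F) *ᵥ w) • c = 0 := by
    rw [← add_left_inj (-((g : Matrix (Fin 3) (Fin 3) F) *ᵥ w)), zero_add, ← sub_eq_add_neg, ← h1]
  exact (smul_eq_zero.1 h3).resolve_right (h.ne_zero h2)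

/-- A centraliser of an involution in a group without elations embeds in `GL₂`, with order prime to `q`. -/
theorem centralizer_gl2 (hM : NoEl M) (hMS : M ≤ Cfsg.Geo.specialLinear (Fin 3) F) (h2 : (2 : F) ≠ 0)
    (ht : t ∈ M) (h : IsHom t c ψ) :
    ∃ G : Subgroup (GL (Fin 2) F), Nat.card G = Nat.card (M ⊓ Subgroup.centralizer {t} : Subgroup (GL (Fin 3) F)) ∧
      (-1 : GL (Fin 2) F) ∈ G ∧ (Nat.card G).Coprime (Fintype.card F) := by
  set Ct : Subgroup (GL (Fin 3) F) := M ⊓ Subgroup.centralizer {t}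
  have hcomm : ∀ g : Ct, (g : GL (Fin 3) F) * t = t * g := fun g =>
    (Subgroup.mem_centralizer_singleton_iff.1 g.2.2)
  set W := LinearMap.ker ψ
  have hψ : ψ ≠ 0 := fun e => h2 (by rw [← h.two, e, LinearMap.zero_apply])
  have hW2 : Module.finrank F W = 2 := by
    have := Module.Dual.finrank_ker_add_one_of_ne_zero hψ
    rw [Module.finrank_fin_fun] at this
    exact Nat.succ.inj this
  let b := Module.finBasisOfFinrankEq F W hW2
  have hmaps : ∀ (g : Ct) (w : Fin 3 → F), w ∈ W →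
      Matrix.mulVecLin ((g : GL (Fin 3) F) : Matrix (Fin 3) (Fin 3) F) w ∈ W :=
    fun g w hw => LinearMap.mem_ker.2 (h.axis_of_commute h2 (hcomm g) (LinearMap.mem_ker.1 hw))
  let ρ : Ct →* Module.End F W :=
    { toFun := fun g => (Matrix.mulVecLin ((g : GL (Fin 3) F) : Matrix (Fin 3) (Fin 3) F)).restrict (hmaps g)
      map_one' := LinearMap.ext fun w => Subtype.ext (by simp)
      map_mul' := fun g k => LinearMap.ext fun w => Subtype.ext (by
        show (((g * k : Ct) : GL (Fin 3) F) : Matrix (Fin 3) (Fin 3) F) *ᵥ (w : Fin 3 → F) = _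
        rw [Subgroup.coe_mul, Units.val_mul, ← Matrix.mulVec_mulVec]
        rfl) }
  have hρ : ∀ (g : Ct) (w : W), ((ρ g w : W) : Fin 3 → F) =
      ((g : GL (Fin 3) F) : Matrix (Fin 3) (Fin 3) F) *ᵥ (w : Fin 3 → F) := fun g w => rfl
  -- an element is determined by its action on the axis and its eigenvalue at the centre
  have hdec : ∀ v : Fin 3 → F, v - (ψ v / 2) • c ∈ W := fun v => LinearMap.mem_ker.2 (by
    rw [map_sub, map_smul, h.two, smul_eq_mul, div_mul_cancel₀ _ h2, sub_self])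
  have hinj : Function.Injective ρ := by
    rw [injective_iff_map_eq_one]
    intro g hg
    set G := ((g : GL (Fin 3) F) : Matrix (Fin 3) (Fin 3) F)
    set μ := ψ (G *ᵥ c) / 2
    have hv : ∀ v, G *ᵥ v = v + (((μ - 1) / 2) • ψ) v • c := fun v => by
      have hw := congrArg Subtype.val (LinearMap.congr_fun hg ⟨_, hdec v⟩)
      rw [hρ, Module.End.one_apply, Matrix.mulVec_sub, Matrix.mulVec_smul,
        h.centre_of_commute h2 (hcomm g), sub_eq_iff_eq_add] at hw
      rw [hw, LinearMap.smul_apply]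
      simp only [smul_eq_mul]
      module
    have hd := det_eq_of_dyad hv
    have hd1 : G.det = 1 := congrArg Units.val (MonoidHom.mem_ker.1 (hMS g.2.1))
    rw [hd1, LinearMap.smul_apply, h.two, smul_eq_mul, div_mul_cancel₀ _ h2] at hd
    refine Subtype.ext (gl_ext fun v => ?_)
    rw [Subgroup.coe_one, Units.val_one, Matrix.one_mulVec, hv, LinearMap.smul_apply]
    rw [show μ - 1 = 0 by linear_combination -hd, zero_div, zero_smul, zero_smul, add_zero]
  let e : Module.End F W ≃ₐ[F] Matrix (Fin 2) (Fin 2) F := LinearMap.toMatrixAlgEquiv b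
  let f : Ct →* GL (Fin 2) F :=
    ((e : Module.End F W →* Matrix (Fin 2) (Fin 2) F).comp ρ).toHomUnits
  have hf : ∀ g, (f g : Matrix (Fin 2) (Fin 2) F) = e (ρ g) := fun g => rfl
  have hfinj : Function.Injective f := fun g k he => hinj (e.injective (by
    rw [← hf, ← hf, he]))
  have hcard : Nat.card f.range = Nat.card Ct := Nat.card_congr (MonoidHom.ofInjective hfinj).toEquiv.symm
  refine ⟨f.range, hcard, ⟨⟨t, ht, Subgroup.mem_centralizer_singleton_iff.2 rfl⟩, Units.ext ?_⟩, ?_⟩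
  · rw [hf, Units.val_neg, Units.val_one]
    refine Eq.trans (congrArg e (?_ : ρ _ = -1)) ((map_neg e.toLinearMap 1).trans (congrArg (fun x => -x) (map_one e)))
    refine LinearMap.ext fun w => Subtype.ext ?_
    rw [hρ, LinearMap.neg_apply, Module.End.one_apply, Submodule.coe_neg]
    show (t : Matrix (Fin 3) (Fin 3) F) *ᵥ _ = _
    rw [h.apply_eq, LinearMap.mem_ker.1 w.2, zero_smul, zero_sub]
  · rw [hcard]
    obtain ⟨p, hpc⟩ := CharP.exists F
    obtain ⟨n, hp, hq⟩ := FiniteField.card F p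
    haveI := Fact.mk hp
    rw [hq]
    refine Nat.Coprime.pow_right _ (hp.coprime_iff_not_dvd.2 fun hdvd => ?_).symm
    obtain ⟨g, hg⟩ := exists_prime_orderOf_dvd_card' p hdvd
    have hgp : g ^ p = 1 := hg ▸ pow_orderOf_eq_one g
    have hA : IsNilpotent (e (ρ g) - 1) := by
      refine ⟨p, ?_⟩
      rw [sub_pow_char_of_commute p (Commute.one_right _), one_pow, ← map_pow, ← map_pow, hgp, map_one, map_one,
        sub_self]
    have hA2 : (ρ g - 1) ^ 2 = 0 := by
      apply e.injective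
      rw [map_pow, show e (ρ g - 1) = e (ρ g) - 1 from (map_sub e.toLinearMap _ _).trans
        (congrArg (e (ρ g) - ·) (map_one e)), map_zero]
      have hcp := Matrix.isNilpotent_charpoly_sub_pow_of_isNilpotent hA
      rw [isNilpotent_iff_eq_zero, sub_eq_zero] at hcp
      have := Matrix.aeval_self_charpoly (e (ρ g) - 1)
      rwa [hcp, map_pow, Polynomial.aeval_X, Fintype.card_fin] at this
    set G := ((g : GL (Fin 3) F) : Matrix (Fin 3) (Fin 3) F)
    have hc1 : G *ᵥ c = c := by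
      have hμ := h.centre_of_commute h2 (hcomm g)
      set μ := ψ (G *ᵥ c) / 2
      have hk : ∀ k : ℕ, (G ^ k) *ᵥ c = μ ^ k • c := fun k => by
        induction k with
        | zero => rw [pow_zero, pow_zero, Matrix.one_mulVec, one_smul]
        | succ k ih => rw [pow_succ', ← Matrix.mulVec_mulVec, ih, Matrix.mulVec_smul, hμ, smul_smul, ← pow_succ]
      have h1 := hk p
      rw [← Units.val_pow_eq_pow_val, ← SubmonoidClass.coe_pow, hgp, Subgroup.coe_one, Units.val_one,
        Matrix.one_mulVec] at h1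
      have h1' : μ ^ p = 1 := by
        have := congrArg ψ h1
        rw [map_smul, h.two, smul_eq_mul] at this
        exact mul_right_cancel₀ h2 (by rw [one_mul]; exact this.symm)
      have hμ1 : μ = 1 := frobenius_inj F p (by simpa [frobenius_def] using h1')
      rw [hμ, hμ1, one_smul]
    have hsq : ∀ v, G *ᵥ (G *ᵥ v - v) = G *ᵥ v - v := fun v => by
      have h2' := congrArg Subtype.val (LinearMap.congr_fun hA2 ⟨_, hdec v⟩)
      rw [sq, Module.End.mul_apply] at h2'
      have hc1' : ((g : GL (Fin 3) F) : Matrix (Fin 3) (Fin 3) F) *ᵥ c = c := hc1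
      show ((g : GL (Fin 3) F) : Matrix (Fin 3) (Fin 3) F) *ᵥ
          (((g : GL (Fin 3) F) : Matrix (Fin 3) (Fin 3) F) *ᵥ v - v) =
        ((g : GL (Fin 3) F) : Matrix (Fin 3) (Fin 3) F) *ᵥ v - v
      simp only [LinearMap.sub_apply, Module.End.one_apply, Submodule.coe_sub, hρ, ZeroMemClass.coe_zero,
        LinearMap.zero_apply, Matrix.mulVec_sub, Matrix.mulVec_smul, hc1'] at h2'
      rw [Matrix.mulVec_sub, ← sub_eq_zero, ← h2']
      abel
    have hne : (g : GL (Fin 3) F) ≠ 1 := fun e => by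
      rw [show g = 1 from Subtype.ext e, orderOf_one] at hg
      exact hp.one_lt.ne hg
    obtain ⟨φ, a, hφ, ha, hel⟩ := hasEl_of_sq_zero g.2.1 hne hsq
    exact hM φ a hφ ha hel

end Cfsg.Agent.H4.SLThree.Singer
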