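import Cfsg.Agent.H4.SLThree.SingerHomology
import Mathlib.LinearAlgebra.Matrix.Charpoly.FiniteField

/-!
An overgroup of the normaliser without elations has odd order: an involution would give either a polarity without
absolute points, which no finite plane has, or impossible orders.
-/

set_option autoImplicit false
set_option linter.unusedSectionVars false
set_option linter.style.haveILetI false

namespace Cfsg.Agent.H4.SLThree.Singer

open scoped Matrix LinearAlgebra.Projectivization

variable {F : Type*} [Field F] [Fintype F] {M : Subgroup (GL (Fin 3) F)}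

/-- Every non-zero subspace has one point modulo the characteristic. -/
theorem points_mod (p : ℕ) [CharP F p] (W : Submodule F (Fin 3 → F)) (hW : W ≠ ⊥) :
    (Nat.card {z : ℙ F (Fin 3 → F) // z.rep ∈ W} : ZMod p) = 1 := by
  have hrep : ∀ (v : Fin 3 → F) (hv : v ≠ 0), v ∈ W → (Projectivization.mk F v hv).rep ∈ W := fun v hv hvW => by
    obtain ⟨a, ha⟩ := Projectivization.exists_smul_eq_mk_rep F v hv
    rw [← ha]; exact W.smul_mem _ hvW
  let f : ℙ F W → {z : ℙ F (Fin 3 → F) // z.rep ∈ W} := fun z =>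
    ⟨Projectivization.map W.subtype W.injective_subtype z, by
      induction z using Projectivization.ind with
      | h v hv => rw [Projectivization.map_mk]; exact hrep _ _ v.2⟩
  have hf : Function.Bijective f := by
    refine ⟨fun a b h => Projectivization.map_injective W.subtype W.injective_subtype (congrArg Subtype.val h),
      fun z => ⟨Projectivization.mk F ⟨z.1.rep, z.2⟩ (fun e => z.1.rep_nonzero (congrArg Subtype.val e)), ?_⟩⟩
    exact Subtype.ext ((Projectivization.map_mk W.subtype W.injective_subtype _ _).trans z.1.mk_rep)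
  rw [← Nat.card_eq_of_bijective f hf]
  have h := Projectivization.card' F W
  rw [Module.natCard_eq_pow_finrank (K := F), Nat.card_eq_fintype_card (α := F)] at h
  have hq : (Fintype.card F : ZMod p) = 0 := by
    obtain ⟨n, hp, hn⟩ := FiniteField.card F p
    rw [hn, Nat.cast_pow, ZMod.natCast_self, zero_pow n.ne_zero]
  have hd : Module.finrank F W ≠ 0 := fun e => hW (Submodule.finrank_eq_zero.1 e)
  have h' := congrArg (fun m : ℕ => (m : ZMod p)) h
  simp only [Nat.cast_add, Nat.cast_mul, Nat.cast_pow, Nat.cast_one, Nat.cast_sub (Fintype.card_pos (α := F)),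
    hq, zero_pow hd, zero_sub, mul_neg, mul_one] at h'
  linear_combination h'

/-- No set of involutions without elations has all points as centres. -/
theorem no_polarity (hM : NoEl M) (h2 : (2 : F) ≠ 0)
    (hall : ∀ z : ℙ F (Fin 3 → F), ∃ t ∈ M, ∃ ψ, IsHom t z.rep ψ) : False := by
  classical
  obtain ⟨p, hpc⟩ := CharP.exists F
  obtain ⟨n, hp, -⟩ := FiniteField.card F p
  haveI := Fact.mk hp
  haveI : Fintype (ℙ F (Fin 3 → F)) := Fintype.ofFinite _
  choose t ht ψ hψ using hall
  let A : Matrix (ℙ F (Fin 3 → F)) (ℙ F (Fin 3 → F)) (ZMod p) := fun z w => if ψ z w.rep = 0 then 1 else 0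
  let J : Matrix (ℙ F (Fin 3 → F)) (ℙ F (Fin 3 → F)) (ZMod p) := fun _ _ => 1
  have hsymm : ∀ z w, ψ z w.rep = 0 → ψ w z.rep = 0 := fun z w h =>
    incidence_symm hM h2 (ht z) (ht w) (hψ z) (hψ w) h
  have hcount : ∀ W : Submodule F (Fin 3 → F), W ≠ ⊥ →
      ((Finset.univ.filter fun u : ℙ F (Fin 3 → F) => u.rep ∈ W).card : ZMod p) = 1 := fun W hW => by
    rw [← points_mod p W hW, Nat.card_eq_fintype_card, Fintype.card_subtype]
  have hAA : A * A = J := by
    ext z w
    show ∑ u, A z u * A u w = 1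
    have hne : LinearMap.ker ((ψ z).prod (ψ w)) ≠ ⊥ :=
      LinearMap.ker_ne_bot_of_finrank_lt (by simp)
    rw [← hcount _ hne, ← Finset.sum_boole]
    refine Finset.sum_congr rfl fun u _ => ?_
    simp only [A, LinearMap.mem_ker, LinearMap.prod_apply, Function.prod_apply, Prod.mk_eq_zero]
    by_cases h1 : ψ z u.rep = 0
    · by_cases h3 : ψ w u.rep = 0
      · simp [h1, h3, hsymm w u h3]
      · have h4 : ψ u w.rep ≠ 0 := fun h => h3 (hsymm u w h)
        simp [h1, h3, h4]
    · simp [h1]
  have hAJ : A * J = J := by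
    ext z w
    show ∑ u, A z u * J u w = 1
    have hne : LinearMap.ker (ψ z) ≠ ⊥ := LinearMap.ker_ne_bot_of_finrank_lt (by simp)
    rw [← hcount _ hne, ← Finset.sum_boole]
    simp [A, J]
  have hpow : ∀ k, A ^ (k + 2) = J := fun k => by
    induction k with
    | zero => rw [zero_add, sq, hAA]
    | succ k ih => rw [show k + 1 + 2 = k + 2 + 1 by ring, pow_succ', ih, hAJ]
  have htr : A.trace = 0 := Finset.sum_eq_zero fun z _ => by
    show A z z = 0
    simp [A, (hψ z).two, h2]
  have h := ZMod.trace_pow_card A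
  obtain ⟨k, hk⟩ := Nat.exists_eq_add_of_le' hp.two_le
  rw [htr, zero_pow hp.ne_zero, show A ^ p = J from (congrArg (A ^ ·) hk).trans (hpow k)] at h
  have hN : J.trace = 1 := by
    rw [← points_mod p (⊤ : Submodule F (Fin 3 → F)) top_ne_bot]
    simp [J, Matrix.trace, Matrix.diag, Nat.card_eq_fintype_card]
  exact zero_ne_one (h.symm.trans hN)

variable {K : Subalgebra F (Matrix (Fin 3) (Fin 3) F)}

/-- An overgroup of the normaliser without elations has odd order. -/
theorem odd_of_noEl (hK : Facts K) (hb : BoundPiece (F := F)) (harith : ArithPiece)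
    (hHM : Cfsg.Geo.subalgebraNormalizer K ⊓ Cfsg.Geo.specialLinear (Fin 3) F ≤ M)
    (hMS : M ≤ Cfsg.Geo.specialLinear (Fin 3) F)
    (hne : M ≠ Cfsg.Geo.subalgebraNormalizer K ⊓ Cfsg.Geo.specialLinear (Fin 3) F) (hM : NoEl M) :
    Odd (Nat.card M) := by
  by_contra hodd
  rw [Nat.not_odd_iff_even] at hodd
  obtain ⟨τ, hτ⟩ := exists_prime_orderOf_dvd_card' (G := M) 2 hodd.two_dvd
  set t : GL (Fin 3) F := (τ : GL (Fin 3) F) with htdef
  have ho : orderOf t = 2 := (Subgroup.orderOf_coe τ).trans hτ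
  have ht2 : t ^ 2 = 1 := ho ▸ pow_orderOf_eq_one t
  have ht1 : t ≠ 1 := fun e => by rw [e, orderOf_one] at ho; omega
  have ht : t ∈ M := τ.2
  have h2 : (2 : F) ≠ 0 := fun h2 => by
    obtain ⟨φ, a, hφ, ha, h⟩ := hasEl_of_involution_two ht ht1 ht2 h2
    exact hM φ a hφ ha h
  obtain ⟨c, ψ, hh⟩ := exists_isHom (congrArg Units.val (MonoidHom.mem_ker.1 (hMS ht))) ht1 ht2 h2
  have hqodd : Odd (Fintype.card F) := by
    refine Nat.not_even_iff_odd.1 fun he => h2 ?_
    haveI := ringChar.of_eq (FiniteField.even_card_iff_char_two.mpr (Nat.even_iff.mp he))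
    exact CharTwo.two_eq_zero
  set N := Fintype.card F ^ 2 + Fintype.card F + 1 with hN
  set C := singer K hK.inv_mem
  have hCM : C ≤ M := (singer_le_norm hK).trans hHM
  set Ct : Subgroup (GL (Fin 3) F) := M ⊓ Subgroup.centralizer {t}
  let L := Ct.subgroupOf M
  let C' := C.subgroupOf M
  have hcomm : ∀ u : M, u ∈ L → (u : GL (Fin 3) F) * t = t * u := fun u hu =>
    Subgroup.mem_centralizer_singleton_iff.1 (Subgroup.mem_subgroupOf.1 hu).2
  -- the Singer group has orbits of equal length on the conjugates of `t`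
  obtain ⟨R, hR⟩ := burnside_split (G := C') (X := M ⧸ L)
    (fun k => IsScal (((k : M) : GL (Fin 3) F) : Matrix (Fin 3) (Fin 3) F)) ∅
    (fun k x hx => hx.elim)
    (fun k hk x => by
      obtain ⟨g, rfl⟩ := QuotientGroup.mk_surjective x
      refine QuotientGroup.eq.2 ?_
      show ((k : M) * g)⁻¹ * g ∈ L
      rw [Subgroup.mem_subgroupOf]
      refine ⟨(((k : M) * g)⁻¹ * g).2, Subgroup.mem_centralizer_singleton_iff.2 ?_⟩
      have : ((((k : M) * g)⁻¹ * g : M) : GL (Fin 3) F) = ((k : M) : GL (Fin 3) F)⁻¹ := by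
        push_cast
        rw [scal_central hk, mul_inv_rev, mul_assoc, inv_mul_cancel, mul_one]
      rw [this]
      exact ((Commute.inv_left (scal_central hk t))).eq)
    (fun k hk x hx => by
      obtain ⟨g, rfl⟩ := QuotientGroup.mk_surjective x
      have hmem : g⁻¹ * ((k : M) * g) ∈ L := QuotientGroup.eq.1 hx.symm
      have hc := hcomm _ hmem
      push_cast at hc
      set u : GL (Fin 3) F := ((g : M) : GL (Fin 3) F)
      set v : GL (Fin 3) F := ((k : M) : GL (Fin 3) F)
      have hvt : (u * t * u⁻¹) * v = v * (u * t * u⁻¹) := by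
        have h3 : u⁻¹ * v * u * t = t * (u⁻¹ * v * u) := by simpa [mul_assoc] using hc
        calc (u * t * u⁻¹) * v = u * (t * (u⁻¹ * v * u)) * u⁻¹ := by group
          _ = u * (u⁻¹ * v * u * t) * u⁻¹ := by rw [h3]
          _ = v * (u * t * u⁻¹) := by group
      have hvC : v ∈ C := k.2
      set w := u * t * u⁻¹ with hw
      have hwK : (w : Matrix (Fin 3) (Fin 3) F) ∈ K :=
        hK.cent _ hvC.1 hk _ (by rw [← Units.val_mul, hvt, Units.val_mul])
      have hw2 : w ^ 2 = 1 := by rw [hw, conj_pow, ht2]; group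
      obtain ⟨c', ψ', hh'⟩ : ∃ c' ψ', IsHom w c' ψ' := ⟨_, _, hh.conj u⟩
      have hfix : ((w : Matrix (Fin 3) (Fin 3) F) - 1) *ᵥ c' = 0 := by
        rw [Matrix.sub_mulVec, hh'.centre, Matrix.one_mulVec, sub_self]
      have hw1 := sub_eq_zero.1 (hK.eq_zero_of_mulVec _ (K.sub_mem hwK K.one_mem) _ (hh'.ne_zero h2) hfix)
      have : w = 1 := Units.ext hw1
      exact absurd (conj_eq_one_iff.1 this) ht1)
  have hcC : Nat.card C' = N :=
    (Nat.card_congr (Subgroup.subgroupOfEquivOfLe hCM).toEquiv).trans hK.card_singer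
  have hcd : Nat.card {k : C' // IsScal (((k : M) : GL (Fin 3) F) : Matrix (Fin 3) (Fin 3) F)} = numScal F := by
    rw [← card_scal hK]
    exact Nat.card_congr ((Subgroup.subgroupOfEquivOfLe hCM).toEquiv.subtypeEquiv fun k => Iff.rfl)
  rw [hcC, hcd, Nat.card_coe_set_eq, Set.ncard_empty, mul_zero, zero_add] at hR
  -- the centre gives an injection of the conjugates into the points
  have hc0 := hh.ne_zero h2
  let pt : M ⧸ L → ℙ F (Fin 3 → F) := fun x =>
    Projectivization.mk F (((x.out : M) : GL (Fin 3) F) • c) (fun e => hc0 ((smul_eq_zero_iff_eq _).1 e))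
  have hsm : ∀ (g : GL (Fin 3) F) (v : Fin 3 → F), g • v = (g : Matrix (Fin 3) (Fin 3) F) *ᵥ v := fun g v => rfl
  have hinj : Function.Injective pt := by
    intro x y hxy
    obtain ⟨a, ha⟩ := (Projectivization.mk_eq_mk_iff' F _ _ _ _).1 hxy
    set u : GL (Fin 3) F := ((x.out : M) : GL (Fin 3) F)
    set v : GL (Fin 3) F := ((y.out : M) : GL (Fin 3) F)
    rw [hsm, hsm] at ha
    have hu := x.out.2
    have hv := y.out.2
    have heq := eq_of_centre' hM h2 (M.mul_mem (M.mul_mem hv ht) (M.inv_mem hv))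
      (M.mul_mem (M.mul_mem hu ht) (M.inv_mem hu)) (hh.conj v) (hh.conj u) ha.symm
    rw [← QuotientGroup.out_eq' x, ← QuotientGroup.out_eq' y]
    refine QuotientGroup.eq.2 (Subgroup.mem_subgroupOf.2 ⟨((x.out)⁻¹ * y.out).2,
      Subgroup.mem_centralizer_singleton_iff.2 ?_⟩)
    push_cast
    calc u⁻¹ * v * t = u⁻¹ * (v * t * v⁻¹) * v := by group
      _ = u⁻¹ * (u * t * u⁻¹) * v := by rw [heq]
      _ = t * (u⁻¹ * v) := by group
  have hP : Nat.card (ℙ F (Fin 3 → F)) = N := by
    rw [Projectivization.card_of_finrank F _ (n := 3) (by rw [Module.finrank_fin_fun]), hN,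
      Nat.card_eq_fintype_card, Finset.sum_range_succ, Finset.sum_range_succ, Finset.sum_range_succ,
      Finset.sum_range_zero]
    ring
  have hle : Nat.card (M ⧸ L) ≤ N := hP ▸ Nat.card_le_card_of_injective pt hinj
  have hN0 : 0 < N := Nat.succ_pos _
  obtain ⟨j, hj, hcount⟩ := norm_count hK M hHM hMS hne
  rw [← hN] at hcount
  have hLag : Nat.card M = Nat.card (M ⧸ L) * Nat.card Ct := by
    rw [Subgroup.card_eq_card_quotient_mul_card_subgroup L,
      Nat.card_congr (Subgroup.subgroupOfEquivOfLe (inf_le_left : Ct ≤ M)).toEquiv]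
  have heq : R * Nat.card Ct = 3 * (numScal F + j * N) := by
    refine Nat.eq_of_mul_eq_mul_left hN0 ?_
    calc N * (R * Nat.card Ct) = numScal F * Nat.card (M ⧸ L) * Nat.card Ct := by rw [hR]; ring
      _ = numScal F * Nat.card M := by rw [hLag]; ring
      _ = N * (3 * (numScal F + j * N)) := by rw [hcount]; ring
  have hR1 : 1 ≤ R := Nat.one_le_iff_ne_zero.2 fun h0 => by
    rw [h0, zero_mul] at heq
    have := numScal_pos (F := F)
    omega
  rcases lt_or_ge R (numScal F) with hlt | hge
  · rcases numScal_cases (F := F) with h1 | ⟨h3, hdvd⟩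
    · omega
    · obtain ⟨G, hG, hneg, hcop⟩ := centralizer_gl2 hM hMS h2 ht hh
      obtain ⟨s, δ, hs, hδ, hsz⟩ := hb hqodd G hcop hneg
      have hq3 : Fintype.card F % 3 = 1 := by
        have := Fintype.card_pos (α := F); omega
      refine harith (Fintype.card F) j R s δ hqodd hq3 Fintype.one_lt_card hj (by omega) hδ hsz ?_
      rw [← hs, hG, ← hN]
      rw [heq, h3]
  · have hfull : Nat.card (M ⧸ L) = N := by
      refine le_antisymm hle (Nat.le_of_mul_le_mul_left ?_ (numScal_pos (F := F)))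
      rw [hR]
      exact Nat.mul_le_mul_right N hge
    have hsurj : Function.Surjective pt :=
      (hinj.bijective_of_nat_card_le (by rw [hP, hfull])).2
    refine no_polarity hM h2 fun z => ?_
    obtain ⟨x, hx⟩ := hsurj z
    set u : GL (Fin 3) F := ((x.out : M) : GL (Fin 3) F)
    obtain ⟨a, ha⟩ := Projectivization.exists_smul_eq_mk_rep F (u • c) (fun e => hc0 ((smul_eq_zero_iff_eq _).1 e))
    refine ⟨u * t * u⁻¹, M.mul_mem (M.mul_mem x.out.2 ht) (M.inv_mem x.out.2),
      (a : F)⁻¹ • ψ.comp (Matrix.mulVecLin ((u⁻¹ : GL (Fin 3) F) : Matrix (Fin 3) (Fin 3) F)), ?_⟩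
    rw [← hx]
    show IsHom _ (Projectivization.mk F (u • c) _).rep _
    rw [← ha, hsm]
    exact (hh.conj u).smul a.ne_zero

end Cfsg.Agent.H4.SLThree.Singer
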