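import Cfsg.Agent.H98.MaximalSL
import Cfsg.Prelude.Def_GeometricClasses

/-!
The normaliser of a cubic field subalgebra is maximal in `SL₃` (conjunct (3) of the geometric types for `SL₃`).

An overgroup with an elation has two centres on every axis and is transitive on points (incidence counts with the
Singer cycle), so contains `SL₃` by Gleason's lemma.  An overgroup without elations of even order would give a
polarity without absolute points or a numerical contradiction; one of odd order is solvable and normalises the field.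
-/

set_option autoImplicit false

namespace Cfsg.Agent.H4.SLThree.Singer

open scoped Matrix

variable {F : Type*} [Field F]

/-- Being a scalar matrix. -/
def IsScal (k : Matrix (Fin 3) (Fin 3) F) : Prop := ∃ c : F, k = c • (1 : Matrix (Fin 3) (Fin 3) F)

/-- The transvection `x ↦ x + φ x • a` lies in `M`. -/
def HasEl (M : Subgroup (GL (Fin 3) F)) (φ : (Fin 3 → F) →ₗ[F] F) (a : Fin 3 → F) : Prop :=
  ∃ ha : φ a = 0, H98.transGL φ a ha ∈ M

/-- The elements of `SL₃` lying in the field. -/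
def singer (K : Subalgebra F (Matrix (Fin 3) (Fin 3) F)) (hinv : ∀ g : GL (Fin 3) F,
    (g : Matrix (Fin 3) (Fin 3) F) ∈ K → ((g⁻¹ : GL (Fin 3) F) : Matrix (Fin 3) (Fin 3) F) ∈ K) :
    Subgroup (GL (Fin 3) F) where
  carrier := {g | (g : Matrix (Fin 3) (Fin 3) F) ∈ K ∧ (g : Matrix (Fin 3) (Fin 3) F).det = 1}
  mul_mem' {g h} hg hh := ⟨by rw [Units.val_mul]; exact K.mul_mem hg.1 hh.1,
    by rw [Units.val_mul, Matrix.det_mul, hg.2, hh.2, one_mul]⟩
  one_mem' := ⟨K.one_mem, Matrix.det_one⟩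
  inv_mem' {g} hg := ⟨hinv g hg.1, by
    have h := congrArg Matrix.det (g.inv_mul)
    rw [Matrix.det_mul, Matrix.det_one, hg.2, mul_one] at h
    exact h⟩

variable [Fintype F]

/-- The facts about a cubic field subalgebra (true whenever the field does not have four elements). -/
structure Facts (K : Subalgebra F (Matrix (Fin 3) (Fin 3) F)) : Prop where
  field : Cfsg.Geo.IsFieldSubalgebra 3 K
  card_ne : Fintype.card F ≠ 4
  inv_mem : ∀ g : GL (Fin 3) F, (g : Matrix (Fin 3) (Fin 3) F) ∈ K →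
    ((g⁻¹ : GL (Fin 3) F) : Matrix (Fin 3) (Fin 3) F) ∈ K
  scalar_mem : ∀ c : F, c • (1 : Matrix (Fin 3) (Fin 3) F) ∈ K
  exists_mulVec : ∀ v : Fin 3 → F, v ≠ 0 → ∀ w, ∃ k ∈ K, k *ᵥ v = w
  eq_zero_of_mulVec : ∀ k ∈ K, ∀ v : Fin 3 → F, v ≠ 0 → k *ᵥ v = 0 → k = 0
  irred : ∀ k ∈ K, ¬ IsScal k → ∀ W : Submodule F (Fin 3 → F), (∀ w ∈ W, k *ᵥ w ∈ W) → W = ⊥ ∨ W = ⊤
  cent : ∀ k ∈ K, ¬ IsScal k → ∀ x : Matrix (Fin 3) (Fin 3) F, x * k = k * x → x ∈ K
  norm : ∀ g : GL (Fin 3) F, ∀ k ∈ K, ¬ IsScal k →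
    (g : Matrix (Fin 3) (Fin 3) F) * k * ((g⁻¹ : GL (Fin 3) F) : Matrix (Fin 3) (Fin 3) F) ∈ K →
      g ∈ Cfsg.Geo.subalgebraNormalizer K
  norm_cube : ∀ g ∈ Cfsg.Geo.subalgebraNormalizer K, ((g ^ 3 : GL (Fin 3) F) : Matrix (Fin 3) (Fin 3) F) ∈ K
  pow_eq_det : ∀ k ∈ K, k ≠ 0 → k ^ (Fintype.card F ^ 2 + Fintype.card F + 1) = k.det • 1
  det_surj : ∀ c : F, c ≠ 0 → ∃ k ∈ K, k.det = c
  card_singer : Nat.card (singer K inv_mem) = Fintype.card F ^ 2 + Fintype.card F + 1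
  scalar_of_pow : ∀ g ∈ singer K inv_mem, ∀ n : ℕ, n ∣ 720 →
    IsScal ((g ^ n : GL (Fin 3) F) : Matrix (Fin 3) (Fin 3) F) → IsScal (g : Matrix (Fin 3) (Fin 3) F)
  card_norm : Nat.card (Cfsg.Geo.subalgebraNormalizer K ⊓ Cfsg.Geo.specialLinear (Fin 3) F :
    Subgroup (GL (Fin 3) F)) = 3 * (Fintype.card F ^ 2 + Fintype.card F + 1)

/-- Every point can be moved to every point. -/
def PointTransitive (M : Subgroup (GL (Fin 3) F)) : Prop :=
  ∀ a b : Fin 3 → F, a ≠ 0 → b ≠ 0 → ∃ g ∈ M, ∃ c : F, (g : Matrix (Fin 3) (Fin 3) F) *ᵥ a = c • b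

/-- Every line is the axis of elations with two different centres. -/
def TwoCentres (M : Subgroup (GL (Fin 3) F)) : Prop :=
  ∀ φ : (Fin 3 → F) →ₗ[F] F, φ ≠ 0 →
    ∃ a b : Fin 3 → F, LinearIndependent F ![a, b] ∧ HasEl M φ a ∧ HasEl M φ b

/-- Piece E: an elation in an overgroup of the Singer group gives transitivity and two centres on every axis. -/
def ElationPiece : Prop :=
  ∀ (K : Subalgebra F (Matrix (Fin 3) (Fin 3) F)) (hK : Facts K) (M : Subgroup (GL (Fin 3) F)),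
    singer K hK.inv_mem ≤ M → M ≤ Cfsg.Geo.specialLinear (Fin 3) F →
    (∃ φ a, φ ≠ 0 ∧ a ≠ 0 ∧ HasEl M φ a) → PointTransitive M ∧ TwoCentres M

/-- Piece G: Gleason's lemma. -/
def GleasonPiece : Prop :=
  ∀ M : Subgroup (GL (Fin 3) F), PointTransitive M → TwoCentres M → Cfsg.Geo.specialLinear (Fin 3) F ≤ M

/-- Piece S: a solvable overgroup of the Singer group normalises the field. -/
def SolvablePiece : Prop :=
  ∀ (K : Subalgebra F (Matrix (Fin 3) (Fin 3) F)) (hK : Facts K) (M : Subgroup (GL (Fin 3) F)),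
    singer K hK.inv_mem ≤ M → M ≤ Cfsg.Geo.specialLinear (Fin 3) F → Group.IsSolvable M →
    M ≤ Cfsg.Geo.subalgebraNormalizer K

/-- The possible sizes of the projective image of a `p'`-subgroup of `SL₂`. -/
def SmallSize (q s : ℕ) : Prop := s ∣ q - 1 ∨ s ∣ q + 1 ∨ s = 12 ∨ s = 24 ∨ s = 60

/-- Piece B: the order of a `p'`-subgroup of `GL₂` containing `-1`. -/
def BoundPiece : Prop :=
  Odd (Fintype.card F) → ∀ G : Subgroup (GL (Fin 2) F), (Nat.card G).Coprime (Fintype.card F) →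
    (-1 : GL (Fin 2) F) ∈ G →
    ∃ s δ : ℕ, Nat.card G = 2 * s * δ ∧ δ ∣ Fintype.card F - 1 ∧ SmallSize (Fintype.card F) s

/-- Piece A: the numerical contradiction. -/
def ArithPiece : Prop :=
  ∀ q j e s δ : ℕ, Odd q → q % 3 = 1 → 1 < q → 1 ≤ j → (e = 1 ∨ e = 2) → δ ∣ q - 1 → SmallSize q s →
    e * (2 * s * δ) ≠ 3 * (3 + j * (q ^ 2 + q + 1))

end Cfsg.Agent.H4.SLThree.Singer
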